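import Cfsg.Agent.Lib.Helper36.BNSt.Defs
import Cfsg.Agent.Lib.Helper18.BNCount

/-!
# Piece A of the Steinberg character farm: Coxeter combinatorics in a (B,N)-pair
-/

set_option autoImplicit false

namespace Cfsg.Agent.Lib.Helper36.BNSt

open Cfsg Cfsg.Agent.Lib.Helper6.BN

variable {G : Type*} [Group G] {P : Cfsg.BNPair G}

theorem lred_iff_up {J : Set G} (hJ : J ⊆ P.S) {n : G} (hn : n ∈ P.N) :
    LRed P J n ↔ ∀ s ∈ J, Up P s n := by
  constructor
  · intro h s hs
    by_contra hu
    obtain ⟨b, hb, hb'⟩ := exists_of_not_up (hJ hs) hn hu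
    refine h s hs (b * n) (mul_left_mem_dc hb (self_mem_dc n)) ?_
    simpa [mul_assoc] using hb'
  · intro h s hs y hy hsy
    have h1 := (h s hs).mem_dc hy
    have h2 : dc P (s * n) = dc P n := by rw [← dc_eq_of_mem h1, dc_eq_of_mem hsy]
    exact not_mem_dc_mul (hJ hs) hn (h2 ▸ self_mem_dc (s * n))

theorem lred_congr {J : Set G} {g g' : G} (h : g' ∈ dc P g) : LRed P J g ↔ LRed P J g' := by
  unfold LRed
  rw [dc_eq_of_mem h]

/-- exchange condition with a prefix. -/
theorem exchange_prefix {s a : G} (hs : s ∈ P.S) (ha : a ∈ P.N) (hu : Up P s a) :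
    ∀ M : List G, IsWord P.S M → ¬ Up P s (a * M.prod) →
    ∃ M1 y M2, M = M1 ++ y :: M2 ∧ Rel P (s * (a * M1.prod)) (a * M1.prod * y) := by
  intro M
  induction M using List.reverseRecOn with
  | nil =>
    intro _ h
    exact absurd (by simpa using hu) h
  | append_singleton M y ih =>
    intro hM h
    by_cases hu' : Up P s (a * M.prod)
    · refine ⟨M, y, [], rfl, ?_⟩
      refine rel_of_up_of_not_up hs (hM.right y (by simp)) (P.N.mul_mem ha hM.left.prod_mem_N) hu' ?_
      simpa [mul_assoc] using h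
    · obtain ⟨M1, z, M2, rfl, hr⟩ := ih hM.left hu'
      exact ⟨M1, z, M2 ++ [y], by simp, hr⟩

/-- consequence of `exchange_prefix`: deleting the letter. -/
theorem rel_of_exchange_prefix {s a y : G} {M1 M2 : List G} (hs : s ∈ P.S) (ha : a ∈ P.N)
    (hM : IsWord P.S (M1 ++ y :: M2)) (hr : Rel P (s * (a * M1.prod)) (a * M1.prod * y)) :
    Rel P (s * (a * (M1 ++ M2).prod)) (a * (M1 ++ y :: M2).prod) := by
  have hM1 := hM.left.prod_mem_N
  have hy : y ∈ P.S := hM.right.head
  have hM2 := hM.right.tail.prod_mem_N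
  have h3 := hr.mul_right (P.N.mul_mem (S_mem_N hs) (P.N.mul_mem ha hM1))
    (P.N.mul_mem (P.N.mul_mem ha hM1) (S_mem_N hy)) hM2
  simpa [mul_assoc] using h3

theorem rel_reverse_prod : ∀ L : List G, IsWord P.S L → Rel P L.reverse.prod L.prod⁻¹ := by
  intro L
  induction L with
  | nil => intro _; simpa using Rel.refl (P := P) (1 : G)
  | cons x L ih =>
    intro hL
    have hx := hL.head
    have hL' := hL.tail
    have hrev : IsWord P.S L.reverse := fun z hz => hL' z (List.mem_reverse.1 hz)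
    have h1 := (ih hL').mul_right hrev.prod_mem_N (P.N.inv_mem hL'.prod_mem_N) (S_mem_N hx)
    have h2 : Rel P (L.prod⁻¹ * x) (L.prod⁻¹ * x⁻¹) := (rel_inv_S hx).symm.mul_left _
    simpa using h1.trans h2

theorem len_inv_le {n : G} (hn : n ∈ P.N) : len P n⁻¹ ≤ len P n := by
  obtain ⟨L, hL, hr, hk⟩ := exists_word_len hn
  have hrev : IsWord P.S L.reverse := fun z hz => hL z (List.mem_reverse.1 hz)
  have h1 : Rel P L.prod⁻¹ n⁻¹ := by
    have := rel_comm_of_N hn hL.prod_mem_N hr.symm
    simpa [Helper6.BN.Rel] using this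
  have := len_le hrev ((rel_reverse_prod L hL).trans h1)
  simpa [hk] using this

theorem len_inv {n : G} (hn : n ∈ P.N) : len P n⁻¹ = len P n := by
  apply le_antisymm (len_inv_le hn)
  simpa using len_inv_le (P.N.inv_mem hn)

/-- (i) of `lred_mul`. -/
theorem lred_mul_aux {J : Set G} (hJ : J ⊆ P.S) {n : G} (hn : n ∈ P.N)
    (hmin : ∀ u ∈ Subgroup.closure J, len P n ≤ len P (u * n)) :
    ∀ L : List G, IsWord J L → IsRed P L →
      len P (L.prod * n) = L.length + len P n ∧
        ∀ p ∈ dc P L.prod, ∀ y ∈ dc P n, p * y ∈ dc P (L.prod * n) := by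
  intro L
  induction L with
  | nil =>
    intro _ _
    refine ⟨by simp, ?_⟩
    intro p hp y hy
    simp only [List.prod_nil, one_mul] at hp ⊢
    exact mul_left_mem_dc (mem_dc_one.1 hp) hy
  | cons x L ih =>
    intro hL hred
    obtain ⟨ih1, ih2⟩ := ih hL.tail hred.tail
    have hx : x ∈ P.S := hJ hL.head
    have ha : L.prod ∈ P.N := hred.tail.1.prod_mem_N
    have hup : Up P x (L.prod * n) := by
      by_contra hnu
      obtain ⟨M, hM, hMr⟩ := exists_red hn
      have h1 : ¬ Up P x (L.prod * M.prod) := fun h => hnu (h.congr (hMr.mul_left _))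
      obtain ⟨M1, y, M2, rfl, hr⟩ := exchange_prefix hx ha hred.up M hM.1 h1
      have h2 := rel_of_exchange_prefix hx ha hM.1 hr
      -- `x a (m1 m2) ~ a M`, so `a⁻¹ x a M ~ m1 m2`
      have h3 : Rel P (x * (x * (L.prod * (M1 ++ M2).prod))) (x * (L.prod * (M1 ++ y :: M2).prod)) :=
        h2.mul_left x
      have hM12 : IsWord P.S (M1 ++ M2) := hM.1.left.append hM.1.right.tail
      have h4 : Rel P (L.prod * (M1 ++ M2).prod) (x * (L.prod * (M1 ++ y :: M2).prod)) :=
        (rel_sq_mul hx (P.N.mul_mem ha hM12.prod_mem_N)).symm.trans h3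
      have h5 : Rel P (L.prod * (M1 ++ M2).prod) (x * (L.prod * n)) :=
        h4.trans ((hMr.mul_left _).mul_left _)
      have h6 : Rel P (M1 ++ M2).prod (L.prod⁻¹ * x * L.prod * n) := by
        have := h5.mul_left L.prod⁻¹
        simpa [mul_assoc] using this
      have h7 := len_le hM12 h6
      have h8 := hmin (L.prod⁻¹ * x * L.prod) (by
        have hc := hL.tail.prod_mem_closure
        exact Subgroup.mul_mem _ (Subgroup.mul_mem _ (Subgroup.inv_mem _ hc)
          (Subgroup.subset_closure hL.head)) hc)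
      have h9 := hM.2
      rw [len_congr hMr] at h9
      simp only [List.length_append, List.length_cons] at h7 h9
      omega
    constructor
    · rw [List.prod_cons, mul_assoc, len_mul_eq_of_up hx (P.N.mul_mem ha hn) hup, ih1,
        List.length_cons]
      omega
    · intro p hp y hy
      rw [List.prod_cons] at hp ⊢
      obtain ⟨b1, hb1, b2, hb2, rfl⟩ := mem_dc.1 hp
      have h1 : L.prod * b2 * y ∈ dc P (L.prod * n) :=
        ih2 _ (mul_right_mem_dc hb2 (self_mem_dc _)) y hy
      have h2 := mul_left_mem_dc hb1 (hup.mem_dc h1)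
      simpa [mul_assoc] using h2

/-- a reduced `J`-word for an element of `⟨J⟩`. -/
theorem exists_red_word_of_mem_closure {J : Set G} (hJ : J ⊆ P.S) {u : G}
    (hu : u ∈ Subgroup.closure J) : ∃ L, IsWord J L ∧ IsRed P L ∧ Rel P L.prod u := by
  obtain ⟨L0, hL0, hr0⟩ := exists_word_of_mem_closure hJ hu
  obtain ⟨L, hsub, hred, hr⟩ := exists_red_sublist L0 (hL0.mono hJ)
  exact ⟨L, fun z hz => hL0 z (hsub.subset hz), hred, hr.trans hr0⟩

/-- (ii) of `lred_mul`: reduced implies minimal. -/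
theorem lred_minimal {J : Set G} (hJ : J ⊆ P.S) {n : G} (hn : n ∈ P.N) (h : ∀ s ∈ J, Up P s n) :
    ∀ u ∈ Subgroup.closure J, len P n ≤ len P (u * n) := by
  have hne : {k | ∃ u ∈ Subgroup.closure J, len P (u * n) = k}.Nonempty :=
    ⟨_, 1, Subgroup.one_mem _, rfl⟩
  obtain ⟨u0, hu0, hk⟩ := Nat.sInf_mem hne
  have hmin0 : ∀ u ∈ Subgroup.closure J, len P (u0 * n) ≤ len P (u * n) := by
    intro u hu
    rw [hk]
    exact Nat.sInf_le ⟨u, hu, rfl⟩
  have hu0N : u0 ∈ P.N := closure_le_N hJ hu0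
  have hn1 : u0 * n ∈ P.N := P.N.mul_mem hu0N hn
  have hmin1 : ∀ u ∈ Subgroup.closure J, len P (u0 * n) ≤ len P (u * (u0 * n)) := by
    intro u hu
    rw [← mul_assoc]
    exact hmin0 _ (Subgroup.mul_mem _ hu hu0)
  obtain ⟨L, hLJ, hred, hr⟩ := exists_red_word_of_mem_closure hJ (Subgroup.inv_mem _ hu0)
  have hrn : Rel P (L.prod * (u0 * n)) n := by
    have := hr.mul_right hred.1.prod_mem_N (P.N.inv_mem hu0N) hn1
    simpa using this
  have hlen : len P n = len P (u0 * n) := by
    cases L with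
    | nil =>
      rw [← len_congr hrn]; simp
    | cons x L =>
      exfalso
      have hx : x ∈ P.S := hJ hLJ.head
      have h1 := (lred_mul_aux hJ hn1 hmin1 (x :: L) hLJ hred).1
      have h2 := (lred_mul_aux hJ hn1 hmin1 L hLJ.tail hred.tail).1
      rw [len_congr hrn] at h1
      have h3 : Rel P (x * n) (L.prod * (u0 * n)) := by
        have h4 := hrn.symm.mul_left x
        rw [List.prod_cons, mul_assoc] at h4
        exact h4.trans (rel_sq_mul hx (P.N.mul_mem hred.tail.1.prod_mem_N hn1))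
      have h5 := (up_iff hx hn).1 (h x hLJ.head)
      rw [len_congr h3] at h5
      simp only [List.length_cons] at h1
      omega
  intro u hu
  rw [hlen]
  exact hmin0 u hu

/-- if `n` is left `J`-reduced and `u ∈ W_J` then `l(u n) = l(u) + l(n)` and
`B u B · B n B = B u n B`. -/
theorem lred_mul {J : Set G} (hJ : J ⊆ P.S) {n : G} (hn : n ∈ P.N) (h : ∀ s ∈ J, Up P s n) {u : G}
    (hu : u ∈ Subgroup.closure J) :
    len P (u * n) = len P u + len P n ∧ ∀ p ∈ dc P u, ∀ y ∈ dc P n, p * y ∈ dc P (u * n) := by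
  obtain ⟨L, hLJ, hred, hr⟩ := exists_red_word_of_mem_closure hJ hu
  obtain ⟨h1, h2⟩ := lred_mul_aux hJ hn (lred_minimal hJ hn h) L hLJ hred
  have hr' : Rel P (L.prod * n) (u * n) :=
    hr.mul_right hred.1.prod_mem_N (closure_le_N hJ hu) hn
  refine ⟨?_, ?_⟩
  · rw [← len_congr hr', h1, ← len_congr hr, hred.2]
  · rw [← hr.dc_eq, ← hr'.dc_eq]
    exact h2

end Cfsg.Agent.Lib.Helper36.BNSt
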