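import Cfsg.Agent.Lib.Helper36.BNSt.A

/-!
# Piece B of the Steinberg character farm: `B`-orbits on `G / P_J`
-/

set_option autoImplicit false

namespace Cfsg.Agent.Lib.Helper36.BNSt

open Cfsg Cfsg.Agent.Lib.Helper6.BN

variable {G : Type*} [Group G] {P : Cfsg.BNPair G}

theorem exists_lred {J : Set G} (hJ : J ⊆ P.S) (g : G) :
    ∃ p ∈ P.parabolic J, LRed P J (p * g) := by
  have hne : {k | ∃ n ∈ P.N, ∃ p ∈ P.parabolic J, p * g ∈ dc P n ∧ len P n = k}.Nonempty := by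
    obtain ⟨n, hn, hg⟩ := bruhat_exists (P := P) g
    exact ⟨_, n, hn, 1, Subgroup.one_mem _, by simpa using hg, rfl⟩
  obtain ⟨n, hn, p, hp, hpg, hk⟩ := Nat.sInf_mem hne
  refine ⟨p, hp, ?_⟩
  rw [← lred_congr hpg, lred_iff_up hJ hn]
  intro s hs
  by_contra hu
  have h1 := len_lt_of_not_up (hJ hs) hn hu
  obtain ⟨b1, hb1, b2, hb2, he⟩ := mem_dc.1 hpg
  have h2 : len P n ≤ len P (s * n) := by
    rw [hk]
    refine Nat.sInf_le ⟨s * n, P.N.mul_mem (S_mem_N (hJ hs)) hn, s * b1⁻¹ * p, ?_, ?_, rfl⟩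
    · exact Subgroup.mul_mem _ (Subgroup.mul_mem _ (mem_parabolic_of_mem hs)
        (B_le_parabolic J (P.B.inv_mem hb1))) hp
    · have : s * b1⁻¹ * p * g = s * n * b2 := by
        rw [mul_assoc (s * b1⁻¹), he]; group
      rw [this]
      exact mul_right_mem_dc hb2 (self_mem_dc _)
  omega

theorem mem_B_of_lred {J : Set G} (hJ : J ⊆ P.S) {y p : G} (hp : p ∈ P.parabolic J)
    (h1 : LRed P J y) (h2 : LRed P J (p * y)) : p ∈ P.B := by
  obtain ⟨n, hn, hy⟩ := bruhat_exists (P := P) y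
  obtain ⟨u, hu, hpu⟩ := (mem_parabolic_iff hJ p).1 hp
  have hun : ∀ s ∈ J, Up P s n := (lred_iff_up hJ hn).1 ((lred_congr hy).2 h1)
  obtain ⟨h3, h4⟩ := lred_mul hJ hn hun hu
  have huN : u ∈ P.N := closure_le_N hJ hu
  have hunN : u * n ∈ P.N := P.N.mul_mem huN hn
  have h5 : ∀ s ∈ J, Up P s (u * n) :=
    (lred_iff_up hJ hunN).1 ((lred_congr (h4 p hpu y hy)).2 h2)
  have h6 := (lred_mul hJ hunN h5 (Subgroup.inv_mem _ hu)).1
  rw [inv_mul_cancel_left, len_inv huN] at h6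
  have h7 : len P u = 0 := by omega
  exact (mem_dc_of_mem_B ((len_eq_zero huN).1 h7)).1 hpu

end Cfsg.Agent.Lib.Helper36.BNSt
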