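import Cfsg.Agent.Lib.Helper36.BNSt.B

/-!
# Piece C of the Steinberg character farm: the restriction to `B`
-/

set_option autoImplicit false

namespace Cfsg.Agent.Lib.Helper36.BNSt

open Cfsg Cfsg.Agent.Lib.Helper6.BN

variable {G : Type*} [Group G] {P : Cfsg.BNPair G}

theorem lred_out_inv {J : Set G} (x : G) :
    LRed P J (Quotient.out (x : G ⧸ P.B))⁻¹ ↔ LRed P J x⁻¹ := by
  obtain ⟨β, hβ⟩ := QuotientGroup.mk_out_eq_mul P.B x
  rw [hβ]
  apply lred_congr
  rw [mem_dc]
  refine ⟨(β : G), β.2, 1, P.B.one_mem, ?_⟩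
  simp

theorem smul_mk_eq_iff (H : Subgroup G) (b x : G) :
    b • (x : G ⧸ H) = (x : G ⧸ H) ↔ x⁻¹ * b⁻¹ * x ∈ H := by
  have h : b • (x : G ⧸ H) = ((b * x : G) : G ⧸ H) := rfl
  rw [h, QuotientGroup.eq, mul_inv_rev]

theorem card_fixedBy_parabolic [Finite G] {J : Set G} (hJ : J ⊆ P.S) {b : G} (hb : b ∈ P.B) :
    Nat.card (MulAction.fixedBy (G ⧸ P.parabolic J) b) =
      Nat.card {c : G ⧸ P.B // b • c = c ∧ LRed P J (Quotient.out c)⁻¹} := by
  classical
  symm
  have hfix : ∀ c : {c : G ⧸ P.B // b • c = c ∧ LRed P J (Quotient.out c)⁻¹},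
      ((Quotient.out c.1 : G) : G ⧸ P.parabolic J) ∈ MulAction.fixedBy (G ⧸ P.parabolic J) b := by
    rintro ⟨c, hc1, hc2⟩
    rw [MulAction.mem_fixedBy, smul_mk_eq_iff]
    apply B_le_parabolic J
    rw [← smul_mk_eq_iff, QuotientGroup.out_eq']
    exact hc1
  refine Nat.card_congr (Equiv.ofBijective (fun c => ⟨_, hfix c⟩) ⟨?_, ?_⟩)
  · rintro ⟨c, hc1, hc2⟩ ⟨c', hc1', hc2'⟩ h
    have h1 : ((Quotient.out c : G) : G ⧸ P.parabolic J) = ((Quotient.out c' : G) : G ⧸ P.parabolic J) :=
      congrArg Subtype.val h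
    rw [QuotientGroup.eq] at h1
    have h2 : (Quotient.out c')⁻¹ * Quotient.out c ∈ P.parabolic J := by
      have := (P.parabolic J).inv_mem h1
      simpa using this
    have h3 : (Quotient.out c')⁻¹ * Quotient.out c ∈ P.B := by
      apply mem_B_of_lred hJ h2 hc2
      simpa using hc2'
    have h4 : ((Quotient.out c' : G) : G ⧸ P.B) = ((Quotient.out c : G) : G ⧸ P.B) :=
      QuotientGroup.eq.2 h3
    rw [QuotientGroup.out_eq', QuotientGroup.out_eq'] at h4
    exact Subtype.ext h4.symm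
  · rintro ⟨d, hd⟩
    induction d using QuotientGroup.induction_on with
    | H g =>
    obtain ⟨p, hp, hred⟩ := exists_lred (P := P) hJ g⁻¹
    set x : G := g * p⁻¹ with hx
    have hxinv : x⁻¹ = p * g⁻¹ := by rw [hx]; group
    have hredx : LRed P J x⁻¹ := by rw [hxinv]; exact hred
    have hgx : ((x : G) : G ⧸ P.parabolic J) = (g : G ⧸ P.parabolic J) := by
      rw [QuotientGroup.eq, hxinv]
      simpa using hp
    have hbx : b • ((x : G) : G ⧸ P.B) = ((x : G) : G ⧸ P.B) := by
      rw [smul_mk_eq_iff]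
      have h1 : x⁻¹ * b⁻¹ * x ∈ P.parabolic J := by
        rw [← smul_mk_eq_iff, hgx]
        exact hd
      apply mem_B_of_lred hJ h1 hredx
      have h2 : x⁻¹ * b⁻¹ * x * x⁻¹ = x⁻¹ * b⁻¹ := by group
      rw [h2]
      refine (lred_congr ?_).1 hredx
      exact mul_right_mem_dc (P.B.inv_mem hb) (self_mem_dc _)
    refine ⟨⟨(x : G ⧸ P.B), hbx, (lred_out_inv x).2 hredx⟩, ?_⟩
    apply Subtype.ext
    show ((Quotient.out (x : G ⧸ P.B) : G) : G ⧸ P.parabolic J) = (g : G ⧸ P.parabolic J)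
    rw [← hgx]
    obtain ⟨β, hβ⟩ := QuotientGroup.mk_out_eq_mul P.B x
    rw [hβ, QuotientGroup.eq]
    have : (x * (β : G))⁻¹ * x = (β : G)⁻¹ := by group
    rw [this]
    exact B_le_parabolic J (P.B.inv_mem β.2)

theorem lred_iff_singleton {J : Set G} {y : G} : LRed P J y ↔ ∀ s ∈ J, LRed P {s} y := by
  constructor
  · intro h s hs t ht
    rw [Set.mem_singleton_iff] at ht
    subst ht
    exact h t hs
  · intro h s hs
    exact h s hs s rfl

/-- on `B` the alternating sum counts the fixed points in the cells without ascents. -/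
theorem stChar_of_mem_B [Finite G] {b : G} (hb : b ∈ P.B) :
    stChar P b = (Nat.card {c : G ⧸ P.B // b • c = c ∧ ∀ s ∈ P.S, ¬ LRed P {s} (Quotient.out c)⁻¹} : ℂ) := by
  classical
  have := Fintype.ofFinite (G ⧸ P.B)
  set Sf := (Set.toFinite P.S).toFinset with hSf
  have hmem : ∀ s, s ∈ Sf ↔ s ∈ P.S := fun s => by rw [hSf]; simp
  have hcount : ∀ (q : G ⧸ P.B → Prop) [DecidablePred q], (Nat.card {c : G ⧸ P.B // q c} : ℂ)
      = ∑ c : G ⧸ P.B, if q c then (1 : ℂ) else 0 := by
    intro q _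
    rw [Nat.card_eq_fintype_card, Fintype.card_subtype, Finset.sum_boole]
  have h1 : stChar P b = ∑ J ∈ Sf.powerset, (-1 : ℂ) ^ J.card *
      ∑ c : G ⧸ P.B, if (b • c = c ∧ LRed P (J : Set G) (Quotient.out c)⁻¹) then (1 : ℂ) else 0 := by
    unfold stChar
    refine Finset.sum_congr rfl fun J hJ => ?_
    have hJS : (J : Set G) ⊆ P.S := by
      intro s hs
      exact (hmem s).1 (Finset.mem_powerset.1 hJ hs)
    rw [← hcount (fun c => b • c = c ∧ LRed P (J : Set G) (Quotient.out c)⁻¹),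
      ← card_fixedBy_parabolic hJS hb]
    rfl
  rw [h1, hcount]
  simp_rw [Finset.mul_sum]
  rw [Finset.sum_comm]
  refine Finset.sum_congr rfl fun c _ => ?_
  by_cases hc : b • c = c
  · set y := (Quotient.out c)⁻¹ with hy
    set A := Sf.filter (fun s => LRed P {s} y) with hA
    have h2 : ∀ J ∈ Sf.powerset, (LRed P (J : Set G) y ↔ J ∈ A.powerset) := by
      intro J hJ
      rw [lred_iff_singleton, Finset.mem_powerset]
      constructor
      · intro h s hs
        rw [hA, Finset.mem_filter]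
        exact ⟨Finset.mem_powerset.1 hJ hs, h s hs⟩
      · intro h s hs
        have := h hs
        rw [hA, Finset.mem_filter] at this
        exact this.2
    have h3 : ∑ J ∈ Sf.powerset, (-1 : ℂ) ^ J.card *
        (if (b • c = c ∧ LRed P (J : Set G) y) then (1 : ℂ) else 0)
        = ∑ J ∈ A.powerset, (-1 : ℂ) ^ J.card := by
      have hsub : A.powerset ⊆ Sf.powerset := Finset.powerset_mono.2 (Finset.filter_subset _ _)
      symm
      apply Finset.sum_subset_zero_on_sdiff hsub
      · intro J hJ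
        rw [Finset.mem_sdiff] at hJ
        have : ¬ LRed P (J : Set G) y := fun h => hJ.2 ((h2 J hJ.1).1 h)
        simp [this]
      · intro J hJ
        have : LRed P (J : Set G) y := (h2 J (hsub hJ)).2 hJ
        simp [this, hc]
    rw [h3]
    have h4 : ∑ J ∈ A.powerset, (-1 : ℂ) ^ J.card = if A = ∅ then 1 else 0 := by
      have := Finset.sum_powerset_neg_one_pow_card (x := A)
      have h5 := congrArg (fun z : ℤ => (z : ℂ)) this
      push_cast at h5
      simpa using h5
    rw [h4]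
    have h6 : A = ∅ ↔ (b • c = c ∧ ∀ s ∈ P.S, ¬ LRed P {s} y) := by
      rw [hA, Finset.filter_eq_empty_iff]
      constructor
      · intro h
        exact ⟨hc, fun s hs => h ((hmem s).2 hs)⟩
      · intro h s hs
        exact h.2 s ((hmem s).1 hs)
    simp only [h6]
  · simp [hc]

end Cfsg.Agent.Lib.Helper36.BNSt
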