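import Cfsg.Agent.Lib.Helper36.BNSt.A

/-!
# Piece D of the Steinberg character farm: `(P_K, P_J)` double cosets
-/

set_option autoImplicit false

namespace Cfsg.Agent.Lib.Helper36.BNSt

open Cfsg Cfsg.Agent.Lib.Helper6.BN

variable {G : Type*} [Group G] {P : Cfsg.BNPair G}

theorem rred_congr {J : Set G} {g g' : G} (h : g' ∈ dc P g) : RRed P J g ↔ RRed P J g' :=
  lred_congr (inv_mem_dc h)

theorem rred_iff_up {J : Set G} (hJ : J ⊆ P.S) {n : G} (hn : n ∈ P.N) :
    RRed P J n ↔ ∀ s ∈ J, Up P s n⁻¹ :=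
  lred_iff_up hJ (P.N.inv_mem hn)

/-- the right handed version of `lred_mul`. -/
theorem rred_mul {J : Set G} (hJ : J ⊆ P.S) {n : G} (hn : n ∈ P.N) (h : ∀ s ∈ J, Up P s n⁻¹) {v : G}
    (hv : v ∈ Subgroup.closure J) :
    len P (n * v) = len P n + len P v ∧ ∀ y ∈ dc P n, ∀ p ∈ dc P v, y * p ∈ dc P (n * v) := by
  have hvN : v ∈ P.N := closure_le_N hJ hv
  obtain ⟨h1, h2⟩ := lred_mul hJ (P.N.inv_mem hn) h (Subgroup.inv_mem _ hv)
  constructor
  · rw [← len_inv (P.N.mul_mem hn hvN), mul_inv_rev, h1, len_inv hvN, len_inv hn, add_comm]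
  · intro y hy p hp
    have := inv_mem_dc (h2 _ (inv_mem_dc hp) _ (inv_mem_dc hy))
    simpa using this

theorem exists_lrred {J K : Set G} (hJ : J ⊆ P.S) (hK : K ⊆ P.S) (g : G) :
    ∃ p ∈ P.parabolic K, ∃ p' ∈ P.parabolic J, LRed P K (p * g * p') ∧ RRed P J (p * g * p') := by
  have hne : {k | ∃ n ∈ P.N, ∃ p ∈ P.parabolic K, ∃ p' ∈ P.parabolic J,
      p * g * p' ∈ dc P n ∧ len P n = k}.Nonempty := by
    obtain ⟨n, hn, hg⟩ := bruhat_exists (P := P) g
    exact ⟨_, n, hn, 1, Subgroup.one_mem _, 1, Subgroup.one_mem _, by simpa using hg, rfl⟩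
  obtain ⟨n, hn, p, hp, p', hp', hpg, hk⟩ := Nat.sInf_mem hne
  obtain ⟨b1, hb1, b2, hb2, he⟩ := mem_dc.1 hpg
  refine ⟨p, hp, p', hp', ?_, ?_⟩
  · rw [← lred_congr hpg, lred_iff_up hK hn]
    intro s hs
    by_contra hu
    have h1 := len_lt_of_not_up (hK hs) hn hu
    have h2 : len P n ≤ len P (s * n) := by
      rw [hk]
      refine Nat.sInf_le ⟨s * n, P.N.mul_mem (S_mem_N (hK hs)) hn, s * b1⁻¹ * p, ?_, p', hp', ?_, rfl⟩
      · exact Subgroup.mul_mem _ (Subgroup.mul_mem _ (mem_parabolic_of_mem hs)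
          (B_le_parabolic K (P.B.inv_mem hb1))) hp
      · have : s * b1⁻¹ * p * g * p' = s * n * b2 := by
          have : s * b1⁻¹ * p * g * p' = s * b1⁻¹ * (p * g * p') := by group
          rw [this, he]; group
        rw [this]
        exact mul_right_mem_dc hb2 (self_mem_dc _)
    omega
  · rw [← rred_congr hpg, rred_iff_up hJ hn]
    intro s hs
    by_contra hu
    have hsN := S_mem_N (hJ hs)
    have h1 := len_lt_of_not_up (hJ hs) (P.N.inv_mem hn) hu
    rw [len_inv hn, ← len_inv (P.N.mul_mem hsN (P.N.inv_mem hn))] at h1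
    have h2 : len P n ≤ len P (s * n⁻¹)⁻¹ := by
      rw [hk]
      refine Nat.sInf_le ⟨(s * n⁻¹)⁻¹, P.N.inv_mem (P.N.mul_mem hsN (P.N.inv_mem hn)), p, hp,
        p' * b2⁻¹ * s⁻¹, ?_, ?_, rfl⟩
      · exact Subgroup.mul_mem _ (Subgroup.mul_mem _ hp'
          (B_le_parabolic J (P.B.inv_mem hb2))) (Subgroup.inv_mem _ (mem_parabolic_of_mem hs))
      · have : p * g * (p' * b2⁻¹ * s⁻¹) = b1 * (s * n⁻¹)⁻¹ := by
          have : p * g * (p' * b2⁻¹ * s⁻¹) = (p * g * p') * b2⁻¹ * s⁻¹ := by group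
          rw [this, he]; group
        rw [this]
        exact mul_left_mem_dc hb1 (self_mem_dc _)
    omega

/-- the key induction: if `u n ~ w v` with `n`, `w` both `(K,J)`-reduced then `n ~ w`. -/
theorem rel_of_lrred_aux {J K : Set G} (hJ : J ⊆ P.S) (hK : K ⊆ P.S) {n w : G} (hn : n ∈ P.N)
    (hw : w ∈ P.N) (hnK : ∀ s ∈ K, Up P s n) (hnJ : ∀ s ∈ J, Up P s n⁻¹)
    (hwK : ∀ s ∈ K, Up P s w) (hwJ : ∀ s ∈ J, Up P s w⁻¹) :
    ∀ L : List G, IsWord K L → IsRed P L → ∀ v ∈ Subgroup.closure J,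
      Rel P (L.prod * n) (w * v) → Rel P n w := by
  intro L
  induction L with
  | nil =>
    intro _ _ v hv hr
    simp only [List.prod_nil, one_mul] at hr
    have hvN : v ∈ P.N := closure_le_N hJ hv
    have h1 := (rred_mul hJ hw hwJ hv).1
    have h2 := (rred_mul hJ hn hnJ (Subgroup.inv_mem _ hv)).1
    have h3 : Rel P (n * v⁻¹) w := by
      have := hr.mul_right hn (P.N.mul_mem hw hvN) (P.N.inv_mem hvN)
      simpa using this
    rw [len_congr h3, len_inv hvN] at h2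
    rw [← len_congr hr] at h1
    have h4 : len P v = 0 := by omega
    have h5 : v ∈ P.B := (len_eq_zero hvN).1 h4
    exact hr.trans (Rel.mul_B h5).symm
  | cons s L ih =>
    intro hL hred v hv hr
    have hs : s ∈ P.S := hK hL.head
    have hLN : L.prod ∈ P.N := hred.tail.1.prod_mem_N
    have hvN : v ∈ P.N := closure_le_N hJ hv
    have h1 := (lred_mul hK hn hnK hL.prod_mem_closure).1
    have h2 := (lred_mul hK hn hnK hL.tail.prod_mem_closure).1
    rw [hred.2] at h1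
    rw [hred.tail.2] at h2
    -- `L.prod * n ~ s * (w * v)`
    have h3 : Rel P (L.prod * n) (s * (w * v)) := by
      have h4 := hr.mul_left s
      rw [List.prod_cons, mul_assoc] at h4
      exact (rel_sq_mul hs (P.N.mul_mem hLN hn)).symm.trans h4
    have hnu : ¬ Up P s (w * v) := by
      intro hu
      have h5 := len_lt_of_up hs (P.N.mul_mem hw hvN) hu
      rw [← len_congr h3, ← len_congr hr, h1, h2] at h5
      simp only [List.length_cons] at h5
      omega
    obtain ⟨M, hM, hMr⟩ := exists_word_of_mem_closure hJ hv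
    have hnu' : ¬ Up P s (w * M.prod) := fun h => hnu (h.congr (hMr.mul_left _))
    obtain ⟨M1, y, M2, rfl, hx⟩ := exchange_prefix hs hw (hwK s hL.head) M (hM.mono hJ) hnu'
    have h6 := rel_of_exchange_prefix hs hw (hM.mono hJ) hx
    have hM12 : IsWord J (M1 ++ M2) := hM.left.append hM.right.tail
    have h7 : Rel P (s * (w * (M1 ++ y :: M2).prod)) (w * (M1 ++ M2).prod) :=
      (h6.symm.mul_left s).trans
        (rel_sq_mul hs (P.N.mul_mem hw (hM12.mono hJ).prod_mem_N))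
    refine ih hL.tail hred.tail _ hM12.prod_mem_closure ?_
    exact h3.trans ((((hMr.mul_left w).mul_left s).symm).trans h7)

theorem mem_dc_of_lrred {J K : Set G} (hJ : J ⊆ P.S) (hK : K ⊆ P.S) {y p p' : G}
    (hp : p ∈ P.parabolic K) (hp' : p' ∈ P.parabolic J) (h1 : LRed P K y) (h1' : RRed P J y)
    (h2 : LRed P K (p * y * p')) (h2' : RRed P J (p * y * p')) : p * y * p' ∈ dc P y := by
  obtain ⟨n, hn, hy⟩ := bruhat_exists (P := P) y
  obtain ⟨w, hw, hz⟩ := bruhat_exists (P := P) (p * y * p')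
  obtain ⟨u, hu, hpu⟩ := (mem_parabolic_iff hK p).1 hp
  obtain ⟨v, hv, hpv⟩ := (mem_parabolic_iff hJ p'⁻¹).1 (Subgroup.inv_mem _ hp')
  have hnK : ∀ s ∈ K, Up P s n := (lred_iff_up hK hn).1 ((lred_congr hy).2 h1)
  have hnJ : ∀ s ∈ J, Up P s n⁻¹ := (rred_iff_up hJ hn).1 ((rred_congr hy).2 h1')
  have hwK : ∀ s ∈ K, Up P s w := (lred_iff_up hK hw).1 ((lred_congr hz).2 h2)
  have hwJ : ∀ s ∈ J, Up P s w⁻¹ := (rred_iff_up hJ hw).1 ((rred_congr hz).2 h2')
  have huN : u ∈ P.N := closure_le_N hK hu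
  have hvN : v ∈ P.N := closure_le_N hJ hv
  have h3 : p * y ∈ dc P (u * n) := (lred_mul hK hn hnK hu).2 p hpu y hy
  have h4 : p * y ∈ dc P (w * v) := by
    have := (rred_mul hJ hw hwJ hv).2 _ hz _ hpv
    simpa using this
  have h5 : w * v ∈ dc P (u * n) := mem_dc_trans (mem_dc_comm h4) h3
  have h6 : Rel P (u * n) (w * v) :=
    bruhat_unique (P.N.mul_mem huN hn) (P.N.mul_mem hw hvN) h5
  obtain ⟨L, hLK, hred, hr⟩ := exists_red_word_of_mem_closure hK hu
  have h7 : Rel P (L.prod * n) (u * n) := hr.mul_right hred.1.prod_mem_N huN hn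
  have h8 : Rel P n w := rel_of_lrred_aux hJ hK hn hw hnK hnJ hwK hwJ L hLK hred v hv (h7.trans h6)
  rw [dc_eq_of_mem hy, h8.dc_eq]
  exact hz

theorem card_doubleCoset_parabolic [Finite G] {J K : Set G} (hJ : J ⊆ P.S) (hK : K ⊆ P.S) :
    Nat.card (DoubleCoset.Quotient (P.parabolic K : Set G) (P.parabolic J)) =
      Nat.card {C : DoubleCoset.Quotient (P.B : Set G) P.B //
        LRed P K (Quotient.out C) ∧ RRed P J (Quotient.out C)} := by
  symm
  refine Nat.card_congr (Equiv.ofBijective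
    (fun C => DoubleCoset.mk (P.parabolic K) (P.parabolic J) (Quotient.out C.1)) ⟨?_, ?_⟩)
  · rintro ⟨C, hC1, hC2⟩ ⟨C', hC1', hC2'⟩ h
    obtain ⟨p, hp, p', hp', he⟩ := (DoubleCoset.eq _ _ _ _).1 h
    simp only at he
    rw [he] at hC1' hC2'
    have h1 := mem_dc_of_lrred hJ hK hp hp' hC1 hC2 hC1' hC2'
    rw [← he] at h1
    obtain ⟨a, ha, b, hb, hab⟩ := mem_dc.1 h1
    apply Subtype.ext
    show C = C'
    rw [← DoubleCoset.out_eq' P.B P.B C, ← DoubleCoset.out_eq' P.B P.B C']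
    exact (DoubleCoset.eq _ _ _ _).2 ⟨a, ha, b, hb, hab⟩
  · intro D
    obtain ⟨p, hp, p', hp', h1, h2⟩ := exists_lrred hJ hK (Quotient.out D)
    obtain ⟨a, b, ha, hb, hab⟩ := DoubleCoset.mk_out_eq_mul P.B P.B (p * Quotient.out D * p')
    have hmem : Quotient.out (DoubleCoset.mk P.B P.B (p * Quotient.out D * p')) ∈
        dc P (p * Quotient.out D * p') := mem_dc.2 ⟨a, ha, b, hb, hab⟩
    refine ⟨⟨DoubleCoset.mk P.B P.B (p * Quotient.out D * p'), (lred_congr hmem).1 h1,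
      (rred_congr hmem).1 h2⟩, ?_⟩
    have hD : DoubleCoset.mk (P.parabolic K) (P.parabolic J) (Quotient.out D) = D :=
      DoubleCoset.out_eq' _ _ D
    refine Eq.trans ?_ hD
    refine ((DoubleCoset.eq _ _ _ _).2 ⟨a * p, ?_, p' * b, ?_, ?_⟩).symm
    · exact Subgroup.mul_mem _ (B_le_parabolic K ha) hp
    · exact Subgroup.mul_mem _ hp' (B_le_parabolic J hb)
    · show Quotient.out (DoubleCoset.mk P.B P.B (p * Quotient.out D * p')) = _
      rw [hab]; group

end Cfsg.Agent.Lib.Helper36.BNSt
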