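import Cfsg.Agent.Lib.Helper6.BN2
import Cfsg.Prelude.Def_ParabolicCharacters
import Cfsg.Prelude.Def_Characters

/-!
# The Steinberg character of a finite group with a (B,N)-pair: definitions
-/

set_option autoImplicit false

namespace Cfsg.Agent.Lib.Helper36.BNSt

open Cfsg Cfsg.Agent.Lib.Helper6.BN

variable {G : Type*} [Group G]

/-- `g` is left `J`-reduced: left multiplication by any `s ∈ J` moves the whole double coset `B g B` off itself
(for `g = n ∈ N` this says `l(s n) > l(n)` for all `s ∈ J`). -/
def LRed (P : Cfsg.BNPair G) (J : Set G) (g : G) : Prop := ∀ s ∈ J, ∀ y ∈ dc P g, s * y ∉ dc P g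

/-- `g` is right `J`-reduced. -/
def RRed (P : Cfsg.BNPair G) (J : Set G) (g : G) : Prop := LRed P J g⁻¹

/-- the alternating sum of the permutation characters on the cosets of the standard parabolic subgroups -/
noncomputable def stChar (P : Cfsg.BNPair G) [Finite G] : G → ℂ := fun g =>
  ∑ J ∈ (Set.toFinite P.S).toFinset.powerset, (-1 : ℂ) ^ J.card * fixedPointCharacter (P.parabolic (J : Set G)) g

end Cfsg.Agent.Lib.Helper36.BNSt
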