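import Cfsg.Agent.Lib.Helper36.BNSt.Defs
import Mathlib

/-!
# Fixed vectors of subgroups in a representation: definitions
-/

set_option autoImplicit false

namespace Cfsg.Agent.Lib.Helper36.BNSt

variable {G : Type*} [Group G] {V : Type*} [AddCommGroup V] [Module ℂ V]

/-- the vectors fixed by the subgroup `Z` -/
def fixS (ρ : Representation ℂ G V) (Z : Subgroup G) : Submodule ℂ V where
  carrier := {v | ∀ z ∈ Z, ρ z v = v}
  add_mem' := by
    intro a b ha hb z hz
    rw [map_add, ha z hz, hb z hz]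
  zero_mem' := by
    intro z _
    exact map_zero _
  smul_mem' := by
    intro c v hv z hz
    rw [map_smul, hv z hz]

theorem mem_fixS {ρ : Representation ℂ G V} {Z : Subgroup G} {v : V} :
    v ∈ fixS ρ Z ↔ ∀ z ∈ Z, ρ z v = v := Iff.rfl

/-- the vectors fixed by `R` on which `x a` acts by the scalar `ψ a` -/
def isoS {A : Type*} [AddCommGroup A] (ρ : Representation ℂ G V) (R : Subgroup G) (x : A → G) (ψ : AddChar A ℂ) :
    Submodule ℂ V where
  carrier := {v | (∀ r ∈ R, ρ r v = v) ∧ ∀ a, ρ (x a) v = ψ a • v}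
  add_mem' := by
    intro a b ha hb
    refine ⟨fun z hz => by rw [map_add, ha.1 z hz, hb.1 z hz], fun c => ?_⟩
    rw [map_add, ha.2 c, hb.2 c, smul_add]
  zero_mem' := ⟨fun z _ => map_zero _, fun c => by rw [map_zero, smul_zero]⟩
  smul_mem' := by
    intro c v hv
    refine ⟨fun z hz => by rw [map_smul, hv.1 z hz], fun a => ?_⟩
    rw [map_smul, hv.2 a, smul_comm]

theorem mem_isoS {A : Type*} [AddCommGroup A] {ρ : Representation ℂ G V} {R : Subgroup G} {x : A → G}
    {ψ : AddChar A ℂ} {v : V} :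
    v ∈ isoS ρ R x ψ ↔ (∀ r ∈ R, ρ r v = v) ∧ ∀ a, ρ (x a) v = ψ a • v := Iff.rfl

end Cfsg.Agent.Lib.Helper36.BNSt
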