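import Cfsg.Agent.Lib.Helper36.BNSt.Defs
import Cfsg.Agent.Lib.Helper3.Perm

/-!
# Piece E : inner products of permutation characters (helper41 for helper36's BNSt farm)
-/

set_option autoImplicit false

namespace Cfsg.Agent.Lib.Helper36.BNSt

open Cfsg MulAction

variable {G : Type*} [Group G]

/-- fixed points on a product -/
def fixedByProdEquiv (X Y : Type*) [MulAction G X] [MulAction G Y] (g : G) :
    fixedBy (X × Y) g ≃ fixedBy X g × fixedBy Y g where
  toFun p := (⟨p.1.1, congrArg Prod.fst p.2⟩, ⟨p.1.2, congrArg Prod.snd p.2⟩)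
  invFun p := ⟨(p.1.1, p.2.1), Prod.ext p.1.2 p.2.2⟩
  left_inv _ := rfl
  right_inv _ := rfl

theorem card_fixedBy_prod (X Y : Type*) [MulAction G X] [MulAction G Y] (g : G) :
    Nat.card (fixedBy (X × Y) g) = Nat.card (fixedBy X g) * Nat.card (fixedBy Y g) := by
  rw [Nat.card_congr (fixedByProdEquiv X Y g), Nat.card_prod]

/-- `⟨π_X, π_Y⟩` is the number of orbits on `X × Y`. -/
theorem classInner_card_fixedBy_prod [Fintype G] (X Y : Type*) [MulAction G X] [MulAction G Y]
    [Finite X] [Finite Y] :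
    classInner (fun g : G => (Nat.card (fixedBy X g) : ℂ)) (fun g : G => (Nat.card (fixedBy Y g) : ℂ)) =
      (Nat.card (orbitRel.Quotient G (X × Y)) : ℂ) := by
  rw [← Cfsg.Agent.Lib.Helper3.classInner_card_fixedBy_one (G := G) (X × Y)]
  simp only [classInner, Complex.conj_natCast, map_one, mul_one, card_fixedBy_prod, Nat.cast_mul]

/-- the map `H a K ↦ G (H, aK)` -/
def dcToOrbit (H K : Subgroup G) :
    DoubleCoset.Quotient (H : Set G) K → orbitRel.Quotient G ((G ⧸ H) × (G ⧸ K)) :=
  Quotient.lift (fun a : G => (Quotient.mk'' (((1 : G) : G ⧸ H), (a : G ⧸ K)) :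
      orbitRel.Quotient G ((G ⧸ H) × (G ⧸ K)))) (by
    intro a b hab
    obtain ⟨h, hh, k, hk, rfl⟩ := (DoubleCoset.rel_iff).1 hab
    apply Quotient.sound'
    change _ ∈ orbit G _
    refine ⟨h⁻¹, ?_⟩
    refine Prod.ext ?_ ?_
    · change ((h⁻¹ * 1 : G) : G ⧸ H) = ((1 : G) : G ⧸ H)
      rw [QuotientGroup.eq]
      simpa using hh
    · change ((h⁻¹ * (h * a * k) : G) : G ⧸ K) = ((a : G) : G ⧸ K)
      rw [QuotientGroup.eq]
      have : (h⁻¹ * (h * a * k))⁻¹ * a = k⁻¹ := by group
      rw [this]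
      exact K.inv_mem hk)

theorem dcToOrbit_bijective (H K : Subgroup G) : Function.Bijective (dcToOrbit H K) := by
  constructor
  · intro x y
    induction x using Quotient.inductionOn with | _ a => ?_
    induction y using Quotient.inductionOn with | _ b => ?_
    intro hxy
    have h1 : (Quotient.mk'' (((1 : G) : G ⧸ H), (a : G ⧸ K)) :
      orbitRel.Quotient G ((G ⧸ H) × (G ⧸ K))) = Quotient.mk'' (((1 : G) : G ⧸ H), (b : G ⧸ K)) := hxy
    have h2 := Quotient.exact' h1
    obtain ⟨g, hg⟩ : _ ∈ orbit G _ := h2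
    have e1 : ((g * 1 : G) : G ⧸ H) = ((1 : G) : G ⧸ H) := congrArg Prod.fst hg
    have e2 : ((g * b : G) : G ⧸ K) = ((a : G) : G ⧸ K) := congrArg Prod.snd hg
    rw [QuotientGroup.eq] at e1 e2
    apply Quotient.sound
    refine (DoubleCoset.rel_iff).2 ⟨g⁻¹, ?_, ((g * b)⁻¹ * a)⁻¹, K.inv_mem e2, by group⟩
    simpa using e1
  · intro z
    induction z using Quotient.inductionOn' with | _ p => ?_
    obtain ⟨x, y⟩ := p
    induction x using QuotientGroup.induction_on with | _ x => ?_
    induction y using QuotientGroup.induction_on with | _ y => ?_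
    refine ⟨Quotient.mk _ (x⁻¹ * y), ?_⟩
    apply Quotient.sound'
    change _ ∈ orbit G _
    refine ⟨x⁻¹, ?_⟩
    refine Prod.ext ?_ ?_
    · change ((x⁻¹ * x : G) : G ⧸ H) = ((1 : G) : G ⧸ H)
      simp
    · rfl

theorem card_orbit_prod_quotient (H K : Subgroup G) :
    Nat.card (orbitRel.Quotient G ((G ⧸ H) × (G ⧸ K))) =
      Nat.card (DoubleCoset.Quotient (H : Set G) K) :=
  (Nat.card_congr (Equiv.ofBijective _ (dcToOrbit_bijective H K))).symm

theorem classInner_fixedPointCharacter [Fintype G] (H K : Subgroup G) :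
    classInner (fixedPointCharacter H) (fixedPointCharacter K) =
      (Nat.card (DoubleCoset.Quotient (H : Set G) K) : ℂ) := by
  rw [← card_orbit_prod_quotient]
  exact classInner_card_fixedBy_prod (G ⧸ H) (G ⧸ K)

theorem isCharacter_fixedPointCharacter [Finite G] (H : Subgroup G) :
    IsCharacter G (fixedPointCharacter H) :=
  Cfsg.Agent.Lib.Helper3.isCharacter_card_fixedBy (G ⧸ H)

end Cfsg.Agent.Lib.Helper36.BNSt
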