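import Cfsg.Agent.Lib.Helper36.BNSt.A

/-!
# Piece F of the Steinberg character farm: the longest element
-/

set_option autoImplicit false

namespace Cfsg.Agent.Lib.Helper36.BNSt

open Cfsg Cfsg.Agent.Lib.Helper6.BN

variable {G : Type*} [Group G] {P : Cfsg.BNPair G}

/-- if `w₀` has no left ascent, every reduced word is a prefix of a reduced word of `w₀`. -/
theorem exists_suffix_of_no_ascent {w : G} (hw : w ∈ P.N) (hno : ∀ s ∈ P.S, ¬ Up P s w) :
    ∀ L : List G, IsRed P L →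
      ∃ Y, IsWord P.S Y ∧ Rel P (L.prod * Y.prod) w ∧ L.length + Y.length = len P w := by
  intro L
  induction L with
  | nil =>
    intro _
    obtain ⟨Y, hY, hr, hk⟩ := exists_word_len hw
    exact ⟨Y, hY, by simpa using hr, by simpa using hk⟩
  | cons s L ih =>
    intro hred
    obtain ⟨Y, hY, hr, hk⟩ := ih hred.tail
    have hs : s ∈ P.S := hred.1.head
    have ha : L.prod ∈ P.N := hred.tail.1.prod_mem_N
    have h1 : ¬ Up P s (L.prod * Y.prod) := fun h => hno s hs (h.congr hr)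
    obtain ⟨Y1, y, Y2, rfl, hx⟩ := exchange_prefix hs ha hred.up Y hY h1
    have h2 := rel_of_exchange_prefix hs ha hY hx
    refine ⟨Y1 ++ Y2, hY.left.append hY.right.tail, ?_, ?_⟩
    · rw [List.prod_cons, mul_assoc]
      exact h2.trans hr
    · simp only [List.length_append, List.length_cons] at hk ⊢
      omega

theorem len_le_of_no_ascent {w : G} (hw : w ∈ P.N) (hno : ∀ s ∈ P.S, ¬ Up P s w) {x : G}
    (hx : x ∈ P.N) : len P x ≤ len P w := by
  obtain ⟨L, hred, hr⟩ := exists_red hx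
  obtain ⟨Y, _, _, hk⟩ := exists_suffix_of_no_ascent hw hno L hred
  rw [← len_congr hr, hred.2]
  omega

theorem rel_of_no_ascent {w : G} (hw : w ∈ P.N) (hno : ∀ s ∈ P.S, ¬ Up P s w) {x : G}
    (hx : x ∈ P.N) (hle : len P w ≤ len P x) : Rel P x w := by
  obtain ⟨L, hred, hr⟩ := exists_red hx
  obtain ⟨Y, _, hrY, hk⟩ := exists_suffix_of_no_ascent hw hno L hred
  rw [← len_congr hr, hred.2] at hle
  have hY : Y = [] := List.length_eq_zero_iff.1 (by omega)
  subst hY
  exact hr.symm.trans (by simpa using hrY)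

theorem no_ascent_of_maximal {w : G} (hw : w ∈ P.N) (hmax : ∀ n ∈ P.N, len P n ≤ len P w) :
    ∀ s ∈ P.S, ¬ Up P s w := by
  intro s hs hu
  have h1 := (up_iff hs hw).1 hu
  have h2 := hmax _ (P.N.mul_mem (S_mem_N hs) hw)
  omega

theorem exists_longest [Finite G] : ∃ n₀ ∈ P.N, (∀ s ∈ P.S, ¬ Up P s n₀) ∧ (∀ s ∈ P.S, ¬ Up P s n₀⁻¹) ∧
    ∀ n ∈ P.N, (∀ s ∈ P.S, ¬ Up P s n) → Rel P n₀ n := by
  obtain ⟨n₀, hn₀, hmax⟩ := Set.exists_max_image (P.N : Set G) (len P) (Set.toFinite _)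
    ⟨1, P.N.one_mem⟩
  refine ⟨n₀, hn₀, no_ascent_of_maximal hn₀ hmax, ?_, ?_⟩
  · refine no_ascent_of_maximal (P.N.inv_mem hn₀) ?_
    intro n hn
    rw [len_inv hn₀]
    exact hmax n hn
  · intro n hn hno
    exact rel_of_no_ascent hn hno hn₀ (hmax n hn)

end Cfsg.Agent.Lib.Helper36.BNSt
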