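import Cfsg.Agent.Lib.Helper36.BNSt.F

/-!
# Piece F2: more on elements without left ascents
-/

set_option autoImplicit false

namespace Cfsg.Agent.Lib.Helper36.BNSt

open Cfsg Cfsg.Agent.Lib.Helper6.BN

variable {G : Type*} [Group G]

theorem len_inv_mul_of_no_ascent {P : Cfsg.BNPair G} {w : G} (hw : w ∈ P.N)
    (hno : ∀ s ∈ P.S, ¬ Up P s w) {x : G} (hx : x ∈ P.N) :
    len P (x⁻¹ * w) + len P x = len P w := by
  obtain ⟨L, hred, hr⟩ := exists_red hx
  obtain ⟨Y, hY, hrY, hk⟩ := exists_suffix_of_no_ascent hw hno L hred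
  have hLN : L.prod ∈ P.N := hred.1.prod_mem_N
  have hlx : len P x = L.length := by rw [← len_congr hr, hred.2]
  have h1 : Rel P L.prod⁻¹ x⁻¹ := by
    have := rel_comm_of_N hx hLN hr.symm
    simpa [Helper6.BN.Rel] using this
  have h2 : Rel P Y.prod (L.prod⁻¹ * w) := by
    have := hrY.mul_left L.prod⁻¹
    simpa using this
  have h3 : Rel P (L.prod⁻¹ * w) (x⁻¹ * w) :=
    h1.mul_right (P.N.inv_mem hLN) (P.N.inv_mem hx) hw
  have h4 : len P (x⁻¹ * w) ≤ Y.length := len_le hY (h2.trans h3)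
  obtain ⟨M, hM, hrM, hkM⟩ := exists_word_len (P.N.mul_mem (P.N.inv_mem hx) hw)
  have h5 : Rel P (L ++ M).prod w := by
    rw [List.prod_append]
    have h6 : Rel P (L.prod * M.prod) (L.prod * (x⁻¹ * w)) := hrM.mul_left _
    have h7 : Rel P (L.prod * (x⁻¹ * w)) (x * (x⁻¹ * w)) :=
      hr.mul_right hLN hx (P.N.mul_mem (P.N.inv_mem hx) hw)
    have h8 := h6.trans h7
    rwa [mul_inv_cancel_left] at h8
  have h9 := len_le (hred.1.append hM) h5
  rw [List.length_append] at h9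
  omega

theorem not_up_mul_of_up {P : Cfsg.BNPair G} {w : G} (hw : w ∈ P.N) (hno : ∀ s ∈ P.S, ¬ Up P s w)
    {s v : G} (hs : s ∈ P.S) (hv : v ∈ P.N) (h : Up P s v) : ¬ Up P s (v * w) := by
  intro hu
  have hsv : s * v ∈ P.N := P.N.mul_mem (S_mem_N hs) hv
  have h1 := len_inv_mul_of_no_ascent hw hno (P.N.inv_mem hv)
  have h2 := len_inv_mul_of_no_ascent hw hno (P.N.inv_mem hsv)
  rw [inv_inv, len_inv hv] at h1
  rw [inv_inv, len_inv hsv, len_mul_eq_of_up hs hv h, mul_assoc] at h2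
  have h3 := (up_iff hs (P.N.mul_mem hv hw)).1 hu
  omega

end Cfsg.Agent.Lib.Helper36.BNSt
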