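import Cfsg.Agent.Lib.Helper36.BNSt.C
import Cfsg.Agent.Lib.Helper36.BNSt.F

/-!
# The Steinberg character of a finite group with a (B,N)-pair: the big cell
-/

set_option autoImplicit false

namespace Cfsg.Agent.Lib.Helper36.BNSt

open Cfsg Cfsg.Agent.Lib.Helper6.BN

variable {G : Type*} [Group G]

/-- the elements without left ascents form the double coset of the longest element. -/
theorem no_ascent_iff {P : Cfsg.BNPair G} [Finite G] {n₀ : G} (hn₀ : n₀ ∈ P.N)
    (h : ∀ s ∈ P.S, ¬ Up P s n₀) (g : G) :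
    (∀ s ∈ P.S, ¬ LRed P {s} g) ↔ g ∈ dc P n₀ := by
  obtain ⟨m, hm, _, _, huniq⟩ := exists_longest (P := P)
  have hrel : Rel P m n₀ := huniq n₀ hn₀ h
  constructor
  · intro hg
    obtain ⟨n, hn, hgn⟩ := bruhat_exists (P := P) g
    have h1 : ∀ s ∈ P.S, ¬ Up P s n := by
      intro s hs hup
      apply hg s hs
      rw [← lred_congr hgn, lred_iff_up (by simpa using hs) hn]
      intro s' hs'
      rw [Set.mem_singleton_iff] at hs'
      subst hs'
      exact hup
    have h2 := huniq n hn h1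
    rw [← hrel.dc_eq, h2.dc_eq]; exact hgn
  · intro hg s hs hl
    rw [← lred_congr hg, lred_iff_up (by simpa using hs) hn₀] at hl
    exact h s hs (hl s rfl)

/-- `B`-equivariant bijection of `B / T` with the cosets in the cell `B n⁻¹ B`, when `B ∩ n⁻¹ B n = T`. -/
theorem card_fixed_bigcell (B T : Subgroup G) (n : G) (h1 : ∀ t ∈ T, n * t * n⁻¹ ∈ B)
    (h2 : ∀ x ∈ B, n * x * n⁻¹ ∈ B → x ∈ T) (b : B) :
    Nat.card {c : G ⧸ B // (b : G) • c = c ∧
        (Quotient.out c)⁻¹ ∈ DoubleCoset.doubleCoset n (B : Set G) B} =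
      Nat.card (MulAction.fixedBy (B ⧸ T.subgroupOf B) b) := by
  symm
  let φ : B ⧸ T.subgroupOf B → G ⧸ B := fun c => Quotient.liftOn' c
    (fun x : B => (QuotientGroup.mk ((x : G) * n⁻¹) : G ⧸ B)) (by
      intro x y hxy
      rw [QuotientGroup.leftRel_apply] at hxy
      show (QuotientGroup.mk ((x : G) * n⁻¹) : G ⧸ B) = QuotientGroup.mk ((y : G) * n⁻¹)
      rw [QuotientGroup.eq]
      have := h1 _ (Subgroup.mem_subgroupOf.1 hxy)
      simpa [mul_assoc] using this)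
  have hφ : ∀ x : B, φ (QuotientGroup.mk x) = QuotientGroup.mk ((x : G) * n⁻¹) := fun x => rfl
  have hequiv : ∀ c, φ (b • c) = (b : G) • φ c := by
    intro c
    induction c using QuotientGroup.induction_on with
    | H x =>
      have e1 : b • (QuotientGroup.mk x : B ⧸ T.subgroupOf B) = QuotientGroup.mk (b * x) := rfl
      have e2 : (b : G) • (QuotientGroup.mk ((x : G) * n⁻¹) : G ⧸ B) =
          QuotientGroup.mk ((b : G) * ((x : G) * n⁻¹)) := rfl
      rw [e1, hφ, hφ, e2, Subgroup.coe_mul, mul_assoc]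
  have hinj : Function.Injective φ := by
    intro c c' h
    induction c using QuotientGroup.induction_on with
    | H x =>
      induction c' using QuotientGroup.induction_on with
      | H y =>
        rw [hφ, hφ, QuotientGroup.eq] at h
        rw [QuotientGroup.eq, Subgroup.mem_subgroupOf]
        apply h2 _ (B.mul_mem (B.inv_mem x.2) y.2)
        simpa [mul_assoc] using h
  refine Nat.card_congr (Equiv.ofBijective (fun c => ⟨φ c.1, ?_, ?_⟩) ⟨?_, ?_⟩)
  · rw [← hequiv]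
    exact congrArg φ c.2
  · obtain ⟨c, hc⟩ := c
    induction c using QuotientGroup.induction_on with
    | H x =>
      show (Quotient.out (φ (QuotientGroup.mk x)))⁻¹ ∈ _
      rw [hφ]
      obtain ⟨b', hb'⟩ := QuotientGroup.mk_out_eq_mul B ((x : G) * n⁻¹)
      rw [hb', DoubleCoset.mem_doubleCoset]
      exact ⟨(b' : G)⁻¹, B.inv_mem b'.2, (x : G)⁻¹, B.inv_mem x.2, by group⟩
  · intro c c' h
    exact Subtype.ext (hinj (congrArg Subtype.val h))
  · rintro ⟨c, hc1, hc2⟩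
    obtain ⟨b1, hb1, b2, hb2, e⟩ := DoubleCoset.mem_doubleCoset.1 hc2
    have e1 : c = φ (QuotientGroup.mk (⟨b2⁻¹, B.inv_mem hb2⟩ : B)) := by
      rw [hφ, ← QuotientGroup.out_eq' c, QuotientGroup.eq]
      have e2 : (Quotient.out c) = b2⁻¹ * n⁻¹ * b1⁻¹ := by
        rw [← inv_inv (Quotient.out c), e]; group
      rw [e2]
      have : (b2⁻¹ * n⁻¹ * b1⁻¹)⁻¹ * (b2⁻¹ * n⁻¹) = b1 := by group
      show (b2⁻¹ * n⁻¹ * b1⁻¹)⁻¹ * (b2⁻¹ * n⁻¹) ∈ B
      rw [this]; exact hb1
    refine ⟨⟨QuotientGroup.mk (⟨b2⁻¹, B.inv_mem hb2⟩ : B), ?_⟩, Subtype.ext e1.symm⟩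
    apply hinj
    rw [hequiv, ← e1]
    exact hc1

/-- the restriction of the alternating sum to `B` is the permutation character on `B / T`. -/
theorem stChar_restrict (P : Cfsg.BNPair G) [Finite G] (B T : Subgroup G) (hB : P.B = B) {n₀ : G}
    (hn₀ : n₀ ∈ P.N) (h : ∀ s ∈ P.S, ¬ Up P s n₀) (h1 : ∀ t ∈ T, n₀ * t * n₀⁻¹ ∈ B)
    (h2 : ∀ x ∈ B, n₀ * x * n₀⁻¹ ∈ B → x ∈ T) (b : B) :
    stChar P (b : G) = fixedPointCharacter (T.subgroupOf B) b := by
  subst hB
  rw [stChar_of_mem_B b.2]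
  show _ = ((Nat.card (MulAction.fixedBy (↥P.B ⧸ T.subgroupOf P.B) b) : ℕ) : ℂ)
  rw [← card_fixed_bigcell P.B T n₀ h1 h2 b]
  congr 1
  apply Nat.card_congr
  apply Equiv.subtypeEquivRight
  intro c
  rw [no_ascent_iff hn₀ h]

end Cfsg.Agent.Lib.Helper36.BNSt
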