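import Cfsg.Agent.Lib.Helper36.BNSt.G9

/-!
# Chevalley groups: a representation whose character vanishes on `U \ 1` affords the Steinberg character (end)
-/

set_option autoImplicit false

namespace Cfsg.Agent.Lib.Helper36.BNSt

open Cfsg Cfsg.Lie Cfsg.Agent.Lib.Helper6.BN Cfsg.Agent.Lib.Helper18

variable {D : ChevalleyDatum} {F : Type*} [Field F] [Fintype F] (X : BNData D F)
variable {V : Type*} [AddCommGroup V] [Module ℂ V] [FiniteDimensional ℂ V]

/-- the elements acting trivially on a subspace -/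
def trivOn {G : Type*} [Group G] (ρ : Representation ℂ G V) (E : Submodule ℂ V) : Subgroup G where
  carrier := {t | ∀ v ∈ E, ρ t v = v}
  mul_mem' := by
    intro a b ha hb v hv
    calc ρ (a * b) v = ρ a (ρ b v) := by rw [map_mul]; rfl
      _ = v := by rw [hb v hv, ha v hv]
  one_mem' := by
    intro v _
    rw [map_one]; rfl
  inv_mem' := by
    intro a ha v hv
    calc ρ a⁻¹ v = ρ a⁻¹ (ρ a v) := by rw [ha v hv]
      _ = ρ (a⁻¹ * a) v := by rw [map_mul]; rfl
      _ = v := by rw [inv_mul_cancel, map_one]; rfl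

theorem chev_character_eq (hSt : IsIrrCharacter ↥(D.group F) (stChar X.P))
    (ρ : Representation ℂ ↥(D.group F) V) (hirr : ρ.IsIrreducible)
    (hvan : ∀ u ∈ UG D F, u ≠ 1 → ρ.character u = 0) : ρ.character = stChar X.P := by
  classical
  have hTt := X.hT.tab
  have : Fintype ↥(D.group F) := Fintype.ofFinite _
  apply eq_stChar_of_fixS ρ hirr X.P hSt
  · intro s hs
    obtain ⟨i, rfl⟩ := X.exists_of_mem_S hs
    exact (chev_rank_one X ρ hirr hvan i).1
  · have hne : fixS ρ (UG D F) ≠ ⊥ := by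
      intro h0
      have h1 := finrank_fixS ρ (UG D F)
      rw [h0, finrank_bot, finsum_eq_single _ (1 : ↥(UG D F)) (fun u hu => hvan u u.2
        (fun e => hu (Subtype.ext e)))] at h1
      have h2 : (Module.finrank ℂ V : ℂ) ≠ 0 := by exact_mod_cast finrank_ne_zero_of_irr ρ hirr
      have h3 : (Nat.card (UG D F) : ℂ) ≠ 0 := by exact_mod_cast (Nat.card_pos (α := UG D F)).ne'
      rw [Subgroup.coe_one, Representation.char_one] at h1
      exact (mul_ne_zero (inv_ne_zero h3) h2) (by simpa using h1.symm)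
    have hle : fixS ρ (UG D F) ≤ fixS ρ X.P.B := by
      have hH : ∀ t : ↥(D.group F), (t : GL D.Idx F) ∈ D.diagonalSubgroup F →
          t ∈ trivOn ρ (fixS ρ (UG D F)) := by
        intro t ht
        obtain ⟨c, hc, e⟩ := X.hB.exists_hprod ht
        have h1 : X.hB.hprod c ∈ (trivOn ρ (fixS ρ (UG D F))).map (D.group F).subtype := by
          unfold Base.hprod Base.hl
          apply Subgroup.list_prod_mem
          intro x hx
          obtain ⟨i, hi, rfl⟩ := List.mem_map.mp hx
          have hi' := List.mem_range.mp hi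
          exact ⟨hGi X ⟨i, hi'⟩ (c i), (chev_rank_one X ρ hirr hvan ⟨i, hi'⟩).2 (c i) (hc i hi'), rfl⟩
        obtain ⟨t', ht', e'⟩ := h1
        have : t = t' := Subtype.ext (e.trans e'.symm)
        rw [this]; exact ht'
      intro v hv b hb
      obtain ⟨u, hu, h, hh, e⟩ := X.hB.mem_B_iff.1 ((X.mem_B_iff b).1 hb)
      have huG := X.hB.B_le_group hTt (Base.U_le_B hu)
      have hhG := X.hB.H_le_group hTt hh
      have e' : b = ⟨u, huG⟩ * ⟨h, hhG⟩ := Subtype.ext e
      calc ρ b v = ρ ⟨u, huG⟩ (ρ ⟨h, hhG⟩ v) := by rw [e', map_mul]; rfl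
        _ = v := by rw [hH ⟨h, hhG⟩ hh v hv, hv ⟨u, huG⟩ hu]
    intro h0
    apply hne
    rw [eq_bot_iff, ← h0]
    exact hle

end Cfsg.Agent.Lib.Helper36.BNSt
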