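import Cfsg.Agent.Lib.Helper36.BNSt.G1
import Cfsg.Agent.Lib.Helper18.ChevBruhat
import Cfsg.Agent.Lib.Helper18.ChevLong

/-!
# The Steinberg character of the Chevalley groups: glue with the abstract (B,N)-pair theory
-/

set_option autoImplicit false

namespace Cfsg.Agent.Lib.Helper36.BNSt

open Cfsg Cfsg.Lie Cfsg.Agent.Lib.Helper6.BN Cfsg.Agent.Lib.Helper18

variable {D : ChevalleyDatum} {F : Type*} [Field F] (X : BNData D F)

/-- `i ↦ n_{p_i}`, junk outside the range. -/
noncomputable def sF (i : ℕ) : ↥(D.group F) := if h : i < D.rank then X.sG ⟨i, h⟩ else 1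

lemma sF_of_lt {i : ℕ} (h : i < D.rank) : sF X i = X.sG ⟨i, h⟩ := dif_pos h

lemma coe_sF {i : ℕ} (h : i < D.rank) : ((sF X i : ↥(D.group F)) : GL D.Idx F) = X.hB.ng (D.simple i) 1 := by
  rw [sF_of_lt X h]; rfl

lemma sG_injective : Function.Injective X.sG := by
  intro i j hij
  by_contra hne
  have hTt := X.hT.tab
  have h1 : X.sN i = X.sN j := Subtype.ext hij
  have h2 := X.σ_sN i (X.pI i)
  rw [h1, X.σ_sN j] at h2
  have h3 : D.reflectRoot i (X.pI i : Fin D.nroots) = D.neg (D.simple i) := hTt.refl_simple' i.2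
  have h4 : D.IsPosRoot (D.reflectRoot j (X.pI i : Fin D.nroots)) :=
    hTt.refl_isPos j.2 (hTt.isPos_simple i.2) (fun e => hne (Fin.ext (hTt.simple_inj _ _ i.2 j.2 e)))
  rw [h2, h3, hTt.isPos_neg_iff (hTt.simple_lt i i.2)] at h4
  exact h4 (hTt.isPos_simple i.2)

lemma sF_injOn : Set.InjOn (sF X) (Finset.range D.rank : Finset ℕ) := by
  intro i hi j hj h
  rw [Finset.coe_range, Set.mem_Iio] at hi hj
  rw [sF_of_lt X hi, sF_of_lt X hj] at h
  exact congrArg Fin.val (sG_injective X h)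

lemma parabolic_eq {J : Finset ℕ} (hJ : J ⊆ Finset.range D.rank) [DecidableEq ↥(D.group F)] :
    X.P.parabolic ((J.image (sF X) : Finset ↥(D.group F)) : Set ↥(D.group F)) = D.parabolicIn F J := by
  have hTt := X.hT.tab
  have hlt : ∀ j ∈ J, j < D.rank := fun j hj => Finset.mem_range.1 (hJ hj)
  have hle : D.parabolicSubgroup F (↑J : Set ℕ) ≤ D.group F := by
    unfold ChevalleyDatum.parabolicSubgroup
    rw [sup_le_iff, Subgroup.closure_le]
    refine ⟨X.hB.B_le_group hTt, ?_⟩
    rintro g ⟨j, _, hj, hg⟩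
    rw [X.hB.eq_ng hg]
    exact X.hB.ng_mem_group hTt (hTt.simple_lt j hj) 1
  apply Subgroup.map_injective (D.group F).subtype_injective
  unfold ChevalleyDatum.parabolicIn BNPair.parabolic
  rw [Subgroup.map_subgroupOf_eq_of_le hle, Subgroup.map_sup, X.hPB,
    Subgroup.map_subgroupOf_eq_of_le (X.hB.B_le_group hTt), MonoidHom.map_closure]
  unfold ChevalleyDatum.parabolicSubgroup
  congr 2
  ext g
  simp only [Finset.coe_image, Set.mem_image, Finset.mem_coe, Set.mem_setOf_eq, exists_exists_and_eq_and]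
  constructor
  · rintro ⟨j, hj, rfl⟩
    refine ⟨j, hj, hlt j hj, ?_⟩
    show (((sF X j : ↥(D.group F)) : GL D.Idx F) : Matrix D.Idx D.Idx F) = _
    rw [coe_sF X (hlt j hj), X.hB.coe_ng]
  · rintro ⟨j, hj, hj', hg⟩
    refine ⟨j, hj, ?_⟩
    show ((sF X j : ↥(D.group F)) : GL D.Idx F) = g
    rw [coe_sF X hj', X.hB.eq_ng hg]

theorem steinbergCharacter_eq [Finite ↥(D.group F)] : D.steinbergCharacter F = stChar X.P := by
  classical
  funext g
  unfold ChevalleyDatum.steinbergCharacter stChar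
  have hS : (Set.toFinite X.P.S).toFinset = (Finset.range D.rank).image (sF X) := by
    ext s
    simp only [Set.Finite.mem_toFinset, Finset.mem_image, Finset.mem_range]
    constructor
    · intro hs
      obtain ⟨i, rfl⟩ := X.exists_of_mem_S hs
      exact ⟨i, i.2, sF_of_lt X i.2⟩
    · rintro ⟨i, hi, rfl⟩
      rw [sF_of_lt X hi]
      exact X.sG_mem_S _
  rw [hS]
  refine Finset.sum_bij (fun J _ => J.image (sF X)) ?_ ?_ ?_ ?_
  · intro J hJ
    rw [Finset.mem_powerset] at hJ ⊢
    exact Finset.image_subset_image hJ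
  · intro J hJ J' hJ' h
    rw [Finset.mem_powerset] at hJ hJ'
    have key : ∀ {A A' : Finset ℕ}, A ⊆ Finset.range D.rank → A' ⊆ Finset.range D.rank →
        A.image (sF X) = A'.image (sF X) → A ⊆ A' := by
      intro A A' hA hA' h i hi
      have : sF X i ∈ A'.image (sF X) := h ▸ Finset.mem_image_of_mem _ hi
      obtain ⟨j, hj, e⟩ := Finset.mem_image.1 this
      have := sF_injOn X (Finset.mem_coe.2 (hA' hj)) (Finset.mem_coe.2 (hA hi)) e
      rwa [← this]
    exact Finset.Subset.antisymm (key hJ hJ' h) (key hJ' hJ h.symm)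
  · intro K hK
    rw [Finset.mem_powerset] at hK
    refine ⟨(Finset.range D.rank).filter (fun i => sF X i ∈ K), ?_, ?_⟩
    · rw [Finset.mem_powerset]; exact Finset.filter_subset _ _
    · ext s
      simp only [Finset.mem_image, Finset.mem_filter]
      constructor
      · rintro ⟨i, ⟨_, hi⟩, rfl⟩; exact hi
      · intro hs
        obtain ⟨i, hi, rfl⟩ := Finset.mem_image.1 (hK hs)
        exact ⟨i, ⟨hi, hs⟩, rfl⟩
  · intro J hJ
    rw [Finset.mem_powerset] at hJ
    rw [parabolic_eq X hJ, Finset.card_image_of_injOn ((sF_injOn X).mono (Finset.coe_subset.2 hJ))]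

end Cfsg.Agent.Lib.Helper36.BNSt
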