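import Cfsg.Agent.Lib.Helper36.BNSt.G2

/-!
# The Steinberg character of the Chevalley groups: restriction to `B` and degree
-/

set_option autoImplicit false

namespace Cfsg.Agent.Lib.Helper36.BNSt

open Cfsg Cfsg.Lie Cfsg.Agent.Lib.Helper6.BN Cfsg.Agent.Lib.Helper18

variable {D : ChevalleyDatum} {F : Type*} [Field F] (X : BNData D F)

/-- an element of `N` conjugating `U` onto `V` has no left ascents. -/
theorem no_up_of_conj {n : ↥(D.group F)} (hn : n ∈ X.P.N)
    (hUV : (D.posUnipotent F).map (MulAut.conj (n : GL D.Idx F)).toMonoidHom = D.negUnipotent F) :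
    ∀ s ∈ X.P.S, ¬ Up X.P s n := by
  intro s hs hup
  obtain ⟨i, rfl⟩ := X.exists_of_mem_S hs
  have hTt := X.hT.tab
  let w : ↥X.P.N := ⟨n, hn⟩
  have hneg : ¬ X.rootAct.Pos (X.rootAct.σ w⁻¹ (X.rootAct.p i)) := by
    intro hpos
    have hpos' : D.IsPosRoot (X.σ w⁻¹ (X.pI i) : Fin D.nroots) := hpos
    obtain ⟨c, hc, h⟩ := X.hB.conj_xg hTt (X.ι w) (X.σ w⁻¹ (X.pI i))
    have e1 : X.hB.permHom hTt (X.ι w) (X.σ w⁻¹ (X.pI i)) = X.pI i := by
      have : X.σ w (X.σ w⁻¹ (X.pI i)) = X.pI i := by rw [map_inv]; simp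
      exact this
    have h1 := h 1
    rw [e1] at h1
    have h2 : X.hB.xg (D.simple i) (c * 1) ∈ D.negUnipotent F := by
      rw [← hUV]
      exact ⟨_, X.hB.xg_mem_pos hpos' 1, h1⟩
    have h3 : X.hB.xg (D.simple i) (c * 1) ∈ D.posUnipotent F ⊓ D.negUnipotent F :=
      ⟨X.hB.xg_mem_pos (hTt.isPos_simple i.2) _, h2⟩
    rw [X.hB.U_inf_V X.hT.toTabs, Subgroup.mem_bot, X.hB.xg_eq_one_iff (hTt.simple_lt i i.2)] at h3
    exact hc (by simpa using h3)
  have h1 := RootAct.len_of_not_pos hneg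
  have h2 := len_mul_eq_of_up (X.sG_mem_S i) hn hup
  have h3 : X.rootAct.len w = len X.P n := rfl
  have h4 : X.rootAct.len (X.rootAct.s i * w) = len X.P (X.sG i * n) := rfl
  omega

variable [Finite ↥(D.group F)]

include X

theorem steinberg_restrict_aux {L : List ℕ} (hL : IsLong D L)
    (b : ↥((D.borelSubgroup F).subgroupOf (D.group F))) :
    D.steinbergCharacter F (b : ↥(D.group F)) =
      Cfsg.fixedPointCharacter (((D.diagonalSubgroup F).subgroupOf (D.group F)).subgroupOf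
        ((D.borelSubgroup F).subgroupOf (D.group F))) b := by
  have hTt := X.hT.tab
  obtain ⟨n, hn, hUV⟩ := X.hB.exists_conj_U_eq_V hTt hL
  let n₀ : ↥(D.group F) := ⟨n, X.hB.N_le_group hTt hn⟩
  have hn₀ : n₀ ∈ X.P.N := (X.mem_N_iff _).2 hn
  rw [steinbergCharacter_eq X]
  refine stChar_restrict X.P _ _ X.hPB hn₀ (no_up_of_conj X hn₀ hUV) ?_ ?_ b
  · intro t ht
    exact Base.H_le_B ((X.hB.N_conj_H hTt hn).1 _ ht)
  · intro x hx hx'
    obtain ⟨u, hu, h, hh, e⟩ := X.hB.mem_B_iff.1 hx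
    replace e : (x : GL D.Idx F) = u * h := e
    have hx'' : n * (x : GL D.Idx F) * n⁻¹ ∈ D.borelSubgroup F := hx'
    have h1 : n * u * n⁻¹ ∈ D.negUnipotent F := by
      rw [← hUV]; exact ⟨u, hu, rfl⟩
    have h2 : n * u * n⁻¹ ∈ D.borelSubgroup F := by
      have e2 : n * u * n⁻¹ = (n * (x : GL D.Idx F) * n⁻¹) * (n * h * n⁻¹)⁻¹ := by
        rw [e]; group
      rw [e2]
      exact mul_mem hx'' (inv_mem (Base.H_le_B ((X.hB.N_conj_H hTt hn).1 _ hh)))
    have h3 : n * u * n⁻¹ ∈ D.borelSubgroup F ⊓ D.negUnipotent F := ⟨h2, h1⟩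
    rw [X.hB.B_inf_V X.hT.toTabs, Subgroup.mem_bot] at h3
    have h4 : u = 1 := by
      have : u = n⁻¹ * (n * u * n⁻¹) * n := by group
      rw [this, h3]; group
    show (x : GL D.Idx F) ∈ D.diagonalSubgroup F
    rw [e, h4, one_mul]; exact hh

theorem steinberg_one_aux {L : List ℕ} (hL : IsLong D L) :
    D.steinbergCharacter F 1 = (Nat.card (D.posUnipotent F) : ℂ) := by
  have hTt := X.hT.tab
  have h := steinberg_restrict_aux X hL 1
  rw [Subgroup.coe_one] at h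
  rw [h]
  show ((Nat.card (MulAction.fixedBy _ _) : ℕ) : ℂ) = _
  congr 1
  set B' := (D.borelSubgroup F).subgroupOf (D.group F) with hB'
  set H' := (D.diagonalSubgroup F).subgroupOf (D.group F) with hH'
  have h1 : Nat.card (MulAction.fixedBy (↥B' ⧸ H'.subgroupOf B') (1 : ↥B')) =
      Nat.card (↥B' ⧸ H'.subgroupOf B') := by
    apply Nat.card_congr
    exact ⟨fun c => c.1, fun c => ⟨c, one_smul _ c⟩, fun _ => rfl, fun _ => rfl⟩
  rw [h1]
  have hHB : H' ≤ B' := fun x hx => Base.H_le_B (F := F) (D := D) hx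
  have h2 := Subgroup.card_mul_index (H'.subgroupOf B')
  have h3 : Nat.card (H'.subgroupOf B') = Nat.card (D.diagonalSubgroup F) :=
    (Nat.card_congr (Subgroup.subgroupOfEquivOfLe hHB).toEquiv).trans
      (Nat.card_congr (Subgroup.subgroupOfEquivOfLe (X.hB.H_le_group hTt)).toEquiv)
  have h4 : Nat.card B' = Nat.card (D.borelSubgroup F) :=
    Nat.card_congr (Subgroup.subgroupOfEquivOfLe (X.hB.B_le_group hTt)).toEquiv
  rw [h3, h4, X.hB.card_B X.hT.toTabs, mul_comm] at h2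
  have hfin : Finite (D.diagonalSubgroup F) :=
    Finite.of_equiv _ (Subgroup.subgroupOfEquivOfLe (X.hB.H_le_group hTt)).toEquiv
  exact Nat.eq_of_mul_eq_mul_right Nat.card_pos h2

end Cfsg.Agent.Lib.Helper36.BNSt
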