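import Cfsg.Agent.Lib.Helper36.BNSt.G1

/-!
# Piece K6: the sum of the alternating sum over a class of elements
-/

set_option autoImplicit false

namespace Cfsg.Agent.Lib.Helper36.BNSt

open Cfsg Cfsg.Agent.Lib.Helper6.BN

variable {G : Type*} [Group G]

theorem fixedPointCharacter_conj (Y : Subgroup G) (g x : G) :
    fixedPointCharacter Y (g * x * g⁻¹) = fixedPointCharacter Y x := by
  unfold fixedPointCharacter
  congr 1
  symm
  refine Nat.card_congr (Equiv.subtypeEquiv (MulAction.toPerm g) (fun c => ?_))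
  simp only [MulAction.mem_fixedBy, MulAction.toPerm_apply]
  rw [← mul_smul, inv_mul_cancel_right, mul_smul]
  exact (smul_left_cancel_iff g).symm

theorem stChar_conj [Finite G] (P : Cfsg.BNPair G) (g x : G) :
    stChar P (g * x * g⁻¹) = stChar P x := by
  unfold stChar
  exact Finset.sum_congr rfl (fun J _ => by rw [fixedPointCharacter_conj])

/-- the value of a permutation character when a normal subset controls fixed points -/
theorem fixedPointCharacter_of_forall {X : Type*} [Group X] (Y : Subgroup X) {x : X}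
    (h : ∀ z : X, z⁻¹ * x * z ∈ Y) : fixedPointCharacter Y x = (Y.index : ℂ) := by
  unfold fixedPointCharacter
  congr 1
  have : MulAction.fixedBy (X ⧸ Y) x = Set.univ := by
    ext c
    simp only [MulAction.mem_fixedBy, Set.mem_univ, iff_true]
    induction c using QuotientGroup.induction_on with
    | H z =>
      show (QuotientGroup.mk (x * z) : X ⧸ Y) = QuotientGroup.mk z
      rw [eq_comm, QuotientGroup.eq]
      simpa [mul_assoc] using h z
  rw [this, Nat.card_congr (Equiv.Set.univ _)]
  rfl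

theorem fixedPointCharacter_of_forall_not {X : Type*} [Group X] (Y : Subgroup X) {x : X}
    (h : ∀ z : X, z⁻¹ * x * z ∉ Y) : fixedPointCharacter Y x = 0 := by
  unfold fixedPointCharacter
  have : MulAction.fixedBy (X ⧸ Y) x = ∅ := by
    ext c
    simp only [MulAction.mem_fixedBy, Set.mem_empty_iff_false, iff_false]
    induction c using QuotientGroup.induction_on with
    | H z =>
      intro hc
      apply h z
      have h1 : (QuotientGroup.mk (x * z) : X ⧸ Y) = QuotientGroup.mk z := hc
      rw [eq_comm, QuotientGroup.eq] at h1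
      simpa [mul_assoc] using h1
  rw [this]
  simp

theorem finsum_stChar [Finite G] (P : Cfsg.BNPair G) (A : G → Prop)
    (hA : ∀ g x, A x → A (g * x * g⁻¹))
    (hAB : ∀ x, A x → ∃ g, g * x * g⁻¹ ∈ P.B) (R C : Subgroup G)
    (hRn : ∀ g, ∀ x ∈ R, g * x * g⁻¹ ∈ R)
    (hRC : R ≤ C) (hRA : ∀ x ∈ R, A x) (hCA : ∀ x ∈ C, A x → x ∈ R)
    {n₀ : G} (hn₀ : n₀ ∈ P.N) (hno : ∀ s ∈ P.S, ¬ Up P s n₀) (h1 : ∀ t ∈ C, n₀ * t * n₀⁻¹ ∈ P.B)
    (h2 : ∀ x ∈ P.B, n₀ * x * n₀⁻¹ ∈ P.B → x ∈ C) :
    ∑ᶠ (x : G) (_ : A x), stChar P x = (Nat.card R : ℂ) * (C.relIndex P.B : ℂ) := by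
  classical
  have hB : ∀ u : P.B, A (u : G) →
      stChar P (u : G) = if (u : G) ∈ R then (C.relIndex P.B : ℂ) else 0 := by
    intro u hu
    rw [stChar_restrict P P.B C rfl hn₀ hno h1 h2 u]
    split_ifs with hR
    · rw [fixedPointCharacter_of_forall]
      · rfl
      · intro z
        show ((z⁻¹ * u * z : P.B) : G) ∈ C
        have := hRn (z : G)⁻¹ _ hR
        rw [inv_inv] at this
        exact hRC (by simpa using this)
    · apply fixedPointCharacter_of_forall_not
      intro z hz
      apply hR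
      have hz' : (z : G)⁻¹ * u * z ∈ C := by simpa using (show ((z⁻¹ * u * z : P.B) : G) ∈ C from hz)
      have h3 : A ((z : G)⁻¹ * u * z) := by
        have := hA (z : G)⁻¹ _ hu
        rwa [inv_inv] at this
      have h4 := hRn (z : G) _ (hCA _ hz' h3)
      have h5 : (z : G) * ((z : G)⁻¹ * u * z) * (z : G)⁻¹ = u := by group
      rwa [h5] at h4
  have hval : ∀ x, A x → stChar P x = if x ∈ R then (C.relIndex P.B : ℂ) else 0 := by
    intro x hx
    obtain ⟨g, hg⟩ := hAB x hx
    rw [← stChar_conj P g x, hB ⟨_, hg⟩ (hA g x hx)]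
    have hiff : g * x * g⁻¹ ∈ R ↔ x ∈ R := by
      constructor
      · intro h
        have := hRn g⁻¹ _ h
        have h5 : g⁻¹ * (g * x * g⁻¹) * g⁻¹⁻¹ = x := by group
        rwa [h5] at this
      · exact hRn g x
    simp only [hiff]
  have : Fintype G := Fintype.ofFinite G
  have e1 : ∀ x : G, (∑ᶠ (_ : A x), stChar P x) = if x ∈ R then (C.relIndex P.B : ℂ) else 0 := by
    intro x
    rw [finsum_eq_if]
    split_ifs with h3 h4 h4
    · rw [hval x h3, if_pos h4]
    · rw [hval x h3, if_neg h4]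
    · exact absurd (hRA x h4) h3
    · rfl
  simp only [e1]
  rw [finsum_eq_sum_of_fintype, ← Finset.sum_filter, Finset.sum_const, nsmul_eq_mul]
  congr 2
  rw [Nat.card_eq_fintype_card, Fintype.card_subtype]

end Cfsg.Agent.Lib.Helper36.BNSt
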