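import Cfsg.Agent.Lib.Helper36.BNSt.K1
import Cfsg.Agent.Lib.Helper36.BNSt.K6
import Cfsg.Agent.Lib.Helper36.BNSt.F

/-!
# Piece K7 : the sum of the alternating sum over a class of elements of a parabolic subgroup
-/

set_option autoImplicit false

namespace Cfsg.Agent.Lib.Helper36.BNSt

open Cfsg Cfsg.Agent.Lib.Helper6.BN

variable {G : Type*} [Group G]

theorem finsum_stChar_parBN [Finite G] (P : Cfsg.BNPair G) (K : Set G) (hK : K ⊆ P.S) (A : G → Prop)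
    (hA : ∀ g x, A x → A (g * x * g⁻¹))
    (hAB : ∀ x ∈ P.parabolic K, A x → ∃ g ∈ P.parabolic K, g * x * g⁻¹ ∈ P.B) (R C : Subgroup G)
    (hRn : ∀ g ∈ P.parabolic K, ∀ x ∈ R, g * x * g⁻¹ ∈ R)
    (hRC : R ≤ C) (hCB : C ≤ P.B) (hRA : ∀ x ∈ R, A x) (hCA : ∀ x ∈ C, A x → x ∈ R)
    (h1 : ∀ n ∈ Subgroup.closure K ⊔ (P.B ⊓ P.N), ∀ t ∈ C, n * t * n⁻¹ ∈ P.B)
    (h2 : ∀ n ∈ Subgroup.closure K ⊔ (P.B ⊓ P.N), (∀ s ∈ K, ¬ Up P s n) → (∀ s ∈ K, ¬ Up P s n⁻¹) →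
      ∀ x ∈ P.B, n * x * n⁻¹ ∈ P.B → x ∈ C) :
    ∑ᶠ (x : ↥(P.parabolic K)) (_ : A (x : G)), stChar (parBN P K hK) x =
      (Nat.card R : ℂ) * (C.relIndex P.B : ℂ) := by
  obtain ⟨n₀, hn₀, hno, hno', -⟩ := exists_longest (P := parBN P K hK)
  have hn₀' : (n₀ : G) ∈ Subgroup.closure K ⊔ (P.B ⊓ P.N) := Subgroup.mem_subgroupOf.1 hn₀
  have hBM : P.B ≤ P.parabolic K := B_le_parabolic K
  have key := finsum_stChar (parBN P K hK) (fun x => A (x : G))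
    (fun g x h => hA (g : G) (x : G) h)
    (fun x hx => by
      obtain ⟨g, hg, h⟩ := hAB x x.2 hx
      exact ⟨⟨g, hg⟩, Subgroup.mem_subgroupOf.2 h⟩)
    (R.subgroupOf (P.parabolic K)) (C.subgroupOf (P.parabolic K))
    (fun g x hx => Subgroup.mem_subgroupOf.2 (hRn g g.2 x (Subgroup.mem_subgroupOf.1 hx)))
    (Subgroup.comap_mono hRC)
    (fun x hx => hRA x (Subgroup.mem_subgroupOf.1 hx))
    (fun x hx hAx => Subgroup.mem_subgroupOf.2 (hCA x (Subgroup.mem_subgroupOf.1 hx) hAx))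
    hn₀ hno
    (fun t ht => Subgroup.mem_subgroupOf.2 (h1 n₀ hn₀' t (Subgroup.mem_subgroupOf.1 ht)))
    (fun x hx hx' => Subgroup.mem_subgroupOf.2 (h2 n₀ hn₀'
      (fun s hs hu => hno ⟨s, k1_subset_parabolic P K hs⟩ hs ((up_parBN_iff P K hK _ _).2 hu))
      (fun s hs hu => hno' ⟨s, k1_subset_parabolic P K hs⟩ hs ((up_parBN_iff P K hK _ _).2 hu))
      x (Subgroup.mem_subgroupOf.1 hx) (Subgroup.mem_subgroupOf.1 hx')))
  rw [key]
  have e1 : Nat.card (R.subgroupOf (P.parabolic K)) = Nat.card R :=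
    Nat.card_congr (Subgroup.subgroupOfEquivOfLe ((hRC.trans hCB).trans hBM)).toEquiv
  have e2 : (C.subgroupOf (P.parabolic K)).relIndex (parBN P K hK).B = C.relIndex P.B :=
    Subgroup.relIndex_subgroupOf hBM
  rw [e1, e2]

end Cfsg.Agent.Lib.Helper36.BNSt
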