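import Cfsg.Agent.Lib.Helper36.BNSt.K1
import Cfsg.Agent.Lib.Helper36.BNSt.F2

/-!
# Piece K9 : relative version of F2, stated in `G`
-/

set_option autoImplicit false

namespace Cfsg.Agent.Lib.Helper36.BNSt

open Cfsg Cfsg.Agent.Lib.Helper6.BN

variable {G : Type*} [Group G]

theorem not_up_mul_of_up_rel (P : Cfsg.BNPair G) (K : Set G) (hK : K ⊆ P.S) {w : G}
    (hw : w ∈ Subgroup.closure K ⊔ (P.B ⊓ P.N)) (hno : ∀ s ∈ K, ¬ Up P s w) {s v : G} (hs : s ∈ K)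
    (hv : v ∈ Subgroup.closure K ⊔ (P.B ⊓ P.N)) (h : Up P s v) : ¬ Up P s (v * w) := by
  have hwP := k1_NK_le_parabolic P K hw
  have hvP := k1_NK_le_parabolic P K hv
  have hsP := k1_subset_parabolic P K hs
  have key := not_up_mul_of_up (P := parBN P K hK) (w := ⟨w, hwP⟩) (s := ⟨s, hsP⟩) (v := ⟨v, hvP⟩)
    (Subgroup.mem_subgroupOf.2 hw)
    (fun s' hs' hu => hno s' hs' ((up_parBN_iff P K hK s' ⟨w, hwP⟩).1 hu))
    hs (Subgroup.mem_subgroupOf.2 hv) ((up_parBN_iff P K hK ⟨s, hsP⟩ ⟨v, hvP⟩).2 h)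
  intro hu
  exact key ((up_parBN_iff P K hK ⟨s, hsP⟩ (⟨v, hvP⟩ * ⟨w, hwP⟩)).2 hu)

end Cfsg.Agent.Lib.Helper36.BNSt
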