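import Cfsg.Agent.Lib.Helper36.BNSt.K3
import Cfsg.Agent.Lib.Helper36.BNSt.K7
import Cfsg.Agent.Lib.Helper36.BNSt.K9
import Cfsg.Agent.Lib.Helper36.BNSt.G3
import Cfsg.Agent.S1048

/-!
# Chevalley glue for the count of unipotent elements: roots of a parabolic subsystem
-/

set_option autoImplicit false

namespace Cfsg.Agent.Lib.Helper36.BNSt

open Cfsg Cfsg.Lie Cfsg.Agent.Lib.Helper6.BN Cfsg.Agent.Lib.Helper18 Cfsg.Agent.Lib.Helper17

/-- table check: the coroot of the `j`-th fundamental root has a non-zero `j`-th coefficient. -/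
def ccOK (D : ChevalleyDatum) : Bool := (List.range D.rank).all fun j => decide (cc D (D.simple j) j ≠ 0)

theorem ccOK_of_mem {D : ChevalleyDatum}
    (hD : D ∈ [chevG2, chevB2, chevD4, chevF4, chevE6, chevE7, chevE8]) : ccOK D = true := by
  simp only [List.mem_cons, List.not_mem_nil, or_false] at hD
  rcases hD with rfl | rfl | rfl | rfl | rfl | rfl | rfl <;> decide +kernel

lemma mem_of_inRootSub_simple {D : ChevalleyDatum} (h : ccOK D = true) {J : Set ℕ} {j : ℕ} (hj : j < D.rank)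
    (hr : D.InRootSub J (D.simple j)) : j ∈ J := by
  by_contra hc
  unfold ccOK at h
  rw [List.all_eq_true] at h
  have h1 := h j (List.mem_range.mpr hj)
  exact (by simpa using h1 : cc D (D.simple j) j ≠ 0) (hr.2 j hj hc)

variable {D : ChevalleyDatum} {F : Type*} [Field F] (X : BNData D F)

/-- the subgroup `N_K = ⟨K⟩ T` of the abstract (B,N)-pair, for a set of indices. -/
def NK (J : Set ℕ) : Subgroup ↥(D.group F) := Subgroup.closure (sF X '' J) ⊔ (X.P.B ⊓ X.P.N)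

lemma NK_le_N {J : Set ℕ} (hJ : ∀ j ∈ J, j < D.rank) : NK X J ≤ X.P.N := by
  unfold NK
  rw [sup_le_iff, Subgroup.closure_le]
  refine ⟨?_, inf_le_right⟩
  rintro _ ⟨j, hj, rfl⟩
  rw [sF_of_lt X (hJ j hj)]
  exact X.P.subset (X.sG_mem_S _)

/-- every root of `Φ_J` is the image of a fundamental root of `J` under an element of `N_J`. -/
theorem exists_of_inRootSub (hd : descOK D = true) (hc : ccOK D = true) {J : Set ℕ}
    (hJ : ∀ j ∈ J, j < D.rank) :
    ∀ r, D.InRootSub J r → ∃ (v : ↥X.P.N) (j : Fin D.rank), (v : ↥(D.group F)) ∈ NK X J ∧ (j : ℕ) ∈ J ∧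
      ((X.σ v (X.pI j) : Fin D.nroots) : ℕ) = r := by
  have key := inRootSub_induction hd X.hT.tab J
    (fun r => D.InRootSub J r → ∃ (v : ↥X.P.N) (j : Fin D.rank), (v : ↥(D.group F)) ∈ NK X J ∧ (j : ℕ) ∈ J ∧
      ((X.σ v (X.pI j) : Fin D.nroots) : ℕ) = r) ?_ ?_
  · intro r hr
    exact key r hr hr
  · intro j hj hr
    exact ⟨1, ⟨j, hj⟩, one_mem _, mem_of_inRootSub_simple hc hj hr, by simp [BNData.pI]⟩
  · intro i hiJ hi r hr ih _
    obtain ⟨v, j, hv, hj, e⟩ := ih hr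
    refine ⟨X.sN ⟨i, hi⟩ * v, j, ?_, hj, ?_⟩
    · refine mul_mem ?_ hv
      apply (le_sup_left : _ ≤ NK X J)
      apply Subgroup.subset_closure
      exact ⟨i, hiJ, sF_of_lt X hi⟩
    · rw [map_mul, Equiv.Perm.mul_apply, X.σ_sN, e]

/-- an element of `N_J` whose inverse has no left ascents in `J` makes all positive roots of `Φ_J` negative. -/
theorem neg_of_no_ascent (hd : descOK D = true) (hc : ccOK D = true) {J : Set ℕ}
    (hJ : ∀ j ∈ J, j < D.rank) (n : ↥X.P.N) (hn : (n : ↥(D.group F)) ∈ NK X J)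
    (hno : ∀ s ∈ sF X '' J, ¬ Up X.P s (n : ↥(D.group F))⁻¹) (r : Fin D.nroots) (hr : D.InRootSub J r)
    (hpos : D.IsPosRoot r) : D.IsNegRoot (X.σ n r : Fin D.nroots) := by
  obtain ⟨v, j, hv, hj, e⟩ := exists_of_inRootSub X hd hc hJ r hr
  have e' : X.σ v (X.pI j) = r := Fin.ext e
  have hKS : sF X '' J ⊆ X.P.S := by
    rintro _ ⟨i, hi, rfl⟩
    rw [sF_of_lt X (hJ i hi)]
    exact X.sG_mem_S _
  have hsj : X.sG j ∈ sF X '' J := ⟨j, hj, sF_of_lt X j.2⟩
  have h1 : Up X.P (X.sG j) ((v⁻¹ : ↥X.P.N) : ↥(D.group F)) := by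
    apply X.up_of_pos j v⁻¹
    rw [inv_inv, e']
    exact hpos
  have h2 := not_up_mul_of_up_rel X.P (sF X '' J) hKS (w := (n : ↥(D.group F))⁻¹) (inv_mem hn) hno hsj
    (v := ((v⁻¹ : ↥X.P.N) : ↥(D.group F))) (inv_mem hv) h1
  rcases X.hT.tab.pos_or_neg (X.σ n r : Fin D.nroots).2 with h | h
  · exfalso
    apply h2
    have := X.up_of_pos j (v⁻¹ * n⁻¹) (by
      rw [_root_.mul_inv_rev, inv_inv, inv_inv, map_mul, Equiv.Perm.mul_apply, e']
      exact h)
    exact this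
  · exact h

end Cfsg.Agent.Lib.Helper36.BNSt
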