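import Cfsg.Agent.Lib.Helper36.BNSt.G4

/-!
# Chevalley glue for the count of unipotent elements: `B ∩ n_J B n_J⁻¹ = H U_J`
-/

set_option autoImplicit false

namespace Cfsg.Agent.Lib.Helper36.BNSt

open Cfsg Cfsg.Lie Cfsg.Agent.Lib.Helper6.BN Cfsg.Agent.Lib.Helper18 Cfsg.Agent.Lib.Helper17

/-- a `p`-element of a subgroup containing a Sylow `p`-subgroup is conjugate into it inside the subgroup. -/
theorem exists_conj_mem_of_sylow {G : Type*} [Group G] [Finite G] {p : ℕ} [Fact p.Prime] (Q : Sylow p G)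
    (Y : Subgroup G) (hQY : (Q : Subgroup G) ≤ Y) {x : G} (hx : x ∈ Y) (hxp : ∃ k, orderOf x = p ^ k) :
    ∃ g ∈ Y, g * x * g⁻¹ ∈ (Q : Subgroup G) := by
  let Q' : Sylow p Y := Q.subtype hQY
  let y : Y := ⟨x, hx⟩
  have hy : IsPGroup p (Subgroup.zpowers y) := by
    obtain ⟨k, hk⟩ := hxp
    apply IsPGroup.of_card (n := k)
    rw [Nat.card_zpowers, Subgroup.orderOf_mk, hk]
  obtain ⟨Q'', hle⟩ := hy.exists_le_sylow
  obtain ⟨g, hg⟩ := MulAction.exists_smul_eq Y Q'' Q'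
  refine ⟨g, g.2, ?_⟩
  have h1 : y ∈ (Q'' : Subgroup Y) := hle (Subgroup.mem_zpowers y)
  have h2 : g * y * g⁻¹ ∈ (Q' : Subgroup Y) := by
    rw [← hg, Sylow.coe_subgroup_smul]
    exact Subgroup.smul_mem_pointwise_smul y (MulAut.conj g) _ h1
  exact h2

variable {D : ChevalleyDatum} {F : Type*} [Field F]

/-- the subgroup generated by the positive root subgroups of `Φ_J`. -/
def UL (D : ChevalleyDatum) (F : Type*) [Field F] (J : Set ℕ) : Subgroup (GL D.Idx F) :=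
  Subgroup.closure {g | ∃ (r : ℕ) (t : F), D.IsPosRoot r ∧ D.InRootSub J r ∧ (g : Matrix D.Idx D.Idx F) = D.x F r t}

lemma UL_le_U (J : Set ℕ) : UL D F J ≤ D.posUnipotent F := by
  unfold UL
  rw [Subgroup.closure_le]
  rintro g ⟨r, t, hr, _, hg⟩
  exact Subgroup.subset_closure ⟨r, t, hr, hg⟩

lemma urad_le_U (J : Set ℕ) : D.unipotentRadical F J ≤ D.posUnipotent F := by
  unfold ChevalleyDatum.unipotentRadical
  rw [Subgroup.closure_le]
  rintro g ⟨r, t, hr, _, hg⟩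
  exact Subgroup.subset_closure ⟨r, t, hr, hg⟩

lemma mem_U_decomp {J : Set ℕ}
    (hnorm : D.parabolicSubgroup F J ≤ Subgroup.normalizer (D.unipotentRadical F J : Set (GL D.Idx F)))
    {u : GL D.Idx F} (hu : u ∈ D.posUnipotent F) :
    ∃ u₁ ∈ D.unipotentRadical F J, ∃ u₂ ∈ UL D F J, u = u₁ * u₂ := by
  have h1 : D.posUnipotent F ≤ D.unipotentRadical F J ⊔ UL D F J := by
    unfold ChevalleyDatum.posUnipotent
    rw [Subgroup.closure_le]
    rintro g ⟨r, t, hr, hg⟩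
    by_cases h : D.InRootSub J r
    · exact (le_sup_right : UL D F J ≤ _) (Subgroup.subset_closure ⟨r, t, hr, h, hg⟩)
    · exact (le_sup_left : D.unipotentRadical F J ≤ _) (Subgroup.subset_closure ⟨r, t, hr, h, hg⟩)
  have h2 : UL D F J ≤ Subgroup.normalizer (D.unipotentRadical F J : Set (GL D.Idx F)) :=
    ((UL_le_U J).trans (Base.U_le_B.trans (B_le_parabolic J))).trans hnorm
  have h3 := Subgroup.coe_mul_of_right_le_normalizer_left (D.unipotentRadical F J) (UL D F J) h2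
  have h4 := h1 hu
  rw [← SetLike.mem_coe, h3, Set.mem_mul] at h4
  obtain ⟨a, ha, b, hb, rfl⟩ := h4
  exact ⟨a, ha, b, hb, rfl⟩

lemma mem_C_decomp {J : Set ℕ}
    (hnorm : D.parabolicSubgroup F J ≤ Subgroup.normalizer (D.unipotentRadical F J : Set (GL D.Idx F)))
    {g : GL D.Idx F} : g ∈ D.unipotentRadical F J ⊔ D.diagonalSubgroup F ↔
    ∃ u ∈ D.unipotentRadical F J, ∃ h ∈ D.diagonalSubgroup F, g = u * h := by
  have h2 : D.diagonalSubgroup F ≤ Subgroup.normalizer (D.unipotentRadical F J : Set (GL D.Idx F)) :=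
    (Base.H_le_B.trans (B_le_parabolic J)).trans hnorm
  have h3 := Subgroup.coe_mul_of_right_le_normalizer_left (D.unipotentRadical F J) (D.diagonalSubgroup F) h2
  rw [← SetLike.mem_coe, h3, Set.mem_mul]
  constructor
  · rintro ⟨a, ha, b, hb, rfl⟩; exact ⟨a, ha, b, hb, rfl⟩
  · rintro ⟨a, ha, b, hb, rfl⟩; exact ⟨a, ha, b, hb, rfl⟩

lemma conj_mem_urad {J : Set ℕ}
    (hnorm : D.parabolicSubgroup F J ≤ Subgroup.normalizer (D.unipotentRadical F J : Set (GL D.Idx F)))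
    {g u : GL D.Idx F} (hg : g ∈ D.parabolicSubgroup F J) (hu : u ∈ D.unipotentRadical F J) :
    g * u * g⁻¹ ∈ D.unipotentRadical F J :=
  (Subgroup.mem_normalizer_iff.1 (hnorm hg) u).1 hu

variable (X : BNData D F)

lemma conj_UL_mem_V {J : Set ℕ} (n : ↥X.P.N)
    (hneg : ∀ r : Fin D.nroots, D.InRootSub J r → D.IsPosRoot r → D.IsNegRoot (X.σ n r : Fin D.nroots))
    {u : GL D.Idx F} (hu : u ∈ UL D F J) :
    ((n : ↥(D.group F)) : GL D.Idx F) * u * ((n : ↥(D.group F)) : GL D.Idx F)⁻¹ ∈ D.negUnipotent F := by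
  set m : GL D.Idx F := ((n : ↥(D.group F)) : GL D.Idx F) with hm
  unfold UL at hu
  induction hu using Subgroup.closure_induction with
  | mem x hx =>
    obtain ⟨r, t, hr, hrJ, hx⟩ := hx
    rw [X.hB.eq_xg hx]
    obtain ⟨c, _, hc⟩ := X.hB.conj_xg X.hT.tab (X.ι n) ⟨r, hr.1⟩
    have := hc t
    have e : ((X.ι n : ↥(D.monomialSubgroup F)) : GL D.Idx F) = m := rfl
    rw [e] at this
    rw [this]
    exact X.hB.xg_mem_neg (hneg ⟨r, hr.1⟩ hrJ hr) _
  | one => simp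
  | mul x y _ _ hx hy =>
    have : m * (x * y) * m⁻¹ = (m * x * m⁻¹) * (m * y * m⁻¹) := by group
    rw [this]; exact mul_mem hx hy
  | inv x _ hx =>
    have : m * x⁻¹ * m⁻¹ = (m * x * m⁻¹)⁻¹ := by group
    rw [this]; exact inv_mem hx

/-- `B ∩ n⁻¹ B n ≤ U_J H` when `n` makes the positive roots of `Φ_J` negative. -/
theorem mem_C_of_conj_mem_B {J : Set ℕ}
    (hnorm : D.parabolicSubgroup F J ≤ Subgroup.normalizer (D.unipotentRadical F J : Set (GL D.Idx F)))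
    (n : ↥X.P.N) (hnP : ((n : ↥(D.group F)) : GL D.Idx F) ∈ D.parabolicSubgroup F J)
    (hneg : ∀ r : Fin D.nroots, D.InRootSub J r → D.IsPosRoot r → D.IsNegRoot (X.σ n r : Fin D.nroots))
    {x : GL D.Idx F} (hx : x ∈ D.borelSubgroup F)
    (hx' : ((n : ↥(D.group F)) : GL D.Idx F) * x * ((n : ↥(D.group F)) : GL D.Idx F)⁻¹ ∈ D.borelSubgroup F) :
    x ∈ D.unipotentRadical F J ⊔ D.diagonalSubgroup F := by
  set m : GL D.Idx F := ((n : ↥(D.group F)) : GL D.Idx F) with hm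
  have hmN : m ∈ D.monomialSubgroup F := X.coe_mem_N n
  obtain ⟨u, hu, h, hh, rfl⟩ := X.hB.mem_B_iff.1 hx
  obtain ⟨u₁, hu₁, u₂, hu₂, rfl⟩ := mem_U_decomp hnorm hu
  have h1 : m * u₂ * m⁻¹ ∈ D.negUnipotent F := conj_UL_mem_V X n hneg hu₂
  have h2 : m * u₁ * m⁻¹ ∈ D.borelSubgroup F :=
    Base.U_le_B (urad_le_U J (conj_mem_urad hnorm hnP hu₁))
  have h3 : m * h * m⁻¹ ∈ D.borelSubgroup F := Base.H_le_B ((X.hB.N_conj_H X.hT.tab hmN).1 _ hh)
  have h4 : m * u₂ * m⁻¹ ∈ D.borelSubgroup F := by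
    have e : m * u₂ * m⁻¹ = (m * u₁ * m⁻¹)⁻¹ * (m * (u₁ * u₂ * h) * m⁻¹) * (m * h * m⁻¹)⁻¹ := by group
    rw [e]
    exact mul_mem (mul_mem (inv_mem h2) hx') (inv_mem h3)
  have h5 : m * u₂ * m⁻¹ ∈ D.borelSubgroup F ⊓ D.negUnipotent F := ⟨h4, h1⟩
  rw [X.hB.B_inf_V X.hT.toTabs, Subgroup.mem_bot] at h5
  have h6 : u₂ = 1 := by
    have : u₂ = m⁻¹ * (m * u₂ * m⁻¹) * m := by group
    rw [this, h5]; group
  rw [h6, mul_one]
  exact (mem_C_decomp hnorm).2 ⟨u₁, hu₁, h, hh, rfl⟩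

end Cfsg.Agent.Lib.Helper36.BNSt
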