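import Cfsg.Agent.Lib.Helper36.BNSt.G5
import Cfsg.Agent.S2326

/-!
# The number of unipotent elements of a Chevalley group
-/

set_option autoImplicit false

namespace Cfsg.Agent.Lib.Helper36.BNSt

open Cfsg Cfsg.Lie Cfsg.Agent.Lib.Helper6.BN Cfsg.Agent.Lib.Helper18 Cfsg.Agent.Lib.Helper17

variable {D : ChevalleyDatum} {F : Type*} [Field F] (X : BNData D F)

include X in
theorem card_C {J : Set ℕ}
    (hnorm : D.parabolicSubgroup F J ≤ Subgroup.normalizer (D.unipotentRadical F J : Set (GL D.Idx F))) :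
    Nat.card ↥(D.unipotentRadical F J ⊔ D.diagonalSubgroup F) =
      Nat.card (D.unipotentRadical F J) * Nat.card (D.diagonalSubgroup F) := by
  rw [← Nat.card_prod]
  symm
  let Ψ : ↥(D.unipotentRadical F J) × ↥(D.diagonalSubgroup F) →
      ↥(D.unipotentRadical F J ⊔ D.diagonalSubgroup F) := fun uh =>
    ⟨uh.1 * uh.2, (mem_C_decomp hnorm).2 ⟨_, uh.1.2, _, uh.2.2, rfl⟩⟩
  apply Nat.card_congr (Equiv.ofBijective Ψ ⟨?_, ?_⟩)
  · rintro ⟨u, h⟩ ⟨u', h'⟩ e
    have e1 : (u : GL D.Idx F) * h = u' * h' := congrArg Subtype.val e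
    have e2 : (u' : GL D.Idx F)⁻¹ * u = h' * (h : GL D.Idx F)⁻¹ := by
      rw [eq_mul_inv_iff_mul_eq, mul_assoc, e1]; group
    have h1 : (u' : GL D.Idx F)⁻¹ * u ∈ D.posUnipotent F ⊓ D.diagonalSubgroup F :=
      ⟨(D.posUnipotent F).mul_mem ((D.posUnipotent F).inv_mem (urad_le_U J u'.2)) (urad_le_U J u.2),
        e2 ▸ (D.diagonalSubgroup F).mul_mem h'.2 ((D.diagonalSubgroup F).inv_mem h.2)⟩
    rw [X.hB.U_inf_H X.hT.toTabs, Subgroup.mem_bot] at h1
    have h2 : (u : GL D.Idx F) = u' := (inv_mul_eq_one.mp h1).symm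
    have h3 : (h : GL D.Idx F) = h' := by
      rw [h2] at e1; exact mul_left_cancel e1
    rw [Subtype.ext h2, Subtype.ext h3]
  · rintro ⟨g, hg⟩
    obtain ⟨u, hu, h, hh, rfl⟩ := (mem_C_decomp hnorm).1 hg
    exact ⟨(⟨u, hu⟩, ⟨h, hh⟩), rfl⟩

variable [Finite ↥(D.group F)]

theorem chev_finsum (p : ℕ) [Fact p.Prime] (Q : Sylow p ↥(D.group F))
    (hQ : (Q : Subgroup ↥(D.group F)) = (D.posUnipotent F).subgroupOf (D.group F))
    (hd : descOK D = true) (hc : ccOK D = true) (J : Finset ℕ) (hJ : J ⊆ Finset.range D.rank)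
    (hnorm : D.parabolicSubgroup F (J : Set ℕ) ≤
      Subgroup.normalizer (D.unipotentRadical F (J : Set ℕ) : Set (GL D.Idx F)))
    (hKS : sF X '' (J : Set ℕ) ⊆ X.P.S) :
    ∑ᶠ (x : ↥(X.P.parabolic (sF X '' (J : Set ℕ)))) (_ : ∃ k, orderOf (x : ↥(D.group F)) = p ^ k),
      stChar (parBN X.P (sF X '' (J : Set ℕ)) hKS) x = (Nat.card (D.posUnipotent F) : ℂ) := by
  classical
  have hTt := X.hT.tab
  have hBG := X.hB.B_le_group hTt
  have hJ' : ∀ j ∈ (J : Set ℕ), j < D.rank := fun j hj => Finset.mem_range.1 (hJ hj)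
  have hpar : X.P.parabolic (sF X '' (J : Set ℕ)) = D.parabolicIn F J := by
    rw [← Finset.coe_image]; exact parabolic_eq X hJ
  have hmemP : ∀ g : ↥(D.group F), g ∈ X.P.parabolic (sF X '' (J : Set ℕ)) →
      (g : GL D.Idx F) ∈ D.parabolicSubgroup F (J : Set ℕ) := by
    intro g hg
    rw [hpar] at hg
    exact hg
  have hBP : X.P.B ≤ X.P.parabolic (sF X '' (J : Set ℕ)) := le_sup_left
  have hQB : (Q : Subgroup ↥(D.group F)) ≤ X.P.B := by
    rw [hQ, X.hPB]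
    exact fun x hx => Base.U_le_B (F := F) (D := D) hx
  have hNKP : NK X (J : Set ℕ) ≤ X.P.parabolic (sF X '' (J : Set ℕ)) :=
    sup_le le_sup_right (inf_le_left.trans hBP)
  have hCle : D.unipotentRadical F (J : Set ℕ) ⊔ D.diagonalSubgroup F ≤ D.borelSubgroup F :=
    sup_le ((urad_le_U _).trans Base.U_le_B) Base.H_le_B
  have hBnorm : D.borelSubgroup F ≤ Subgroup.normalizer (D.posUnipotent F : Set (GL D.Idx F)) :=
    sup_le Subgroup.le_normalizer X.hB.H_le_normalizer_U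
  set R : Subgroup ↥(D.group F) := (D.unipotentRadical F (J : Set ℕ)).subgroupOf (D.group F) with hR
  set C : Subgroup ↥(D.group F) :=
    (D.unipotentRadical F (J : Set ℕ) ⊔ D.diagonalSubgroup F).subgroupOf (D.group F) with hC
  have hA : ∀ (g x : ↥(D.group F)), (∃ k, orderOf x = p ^ k) → ∃ k, orderOf (g * x * g⁻¹) = p ^ k := by
    rintro g x ⟨k, hk⟩
    exact ⟨k, by rw [← hk]; exact (MulAut.conj g).orderOf_eq x⟩
  rw [finsum_stChar_parBN X.P _ hKS (fun g => ∃ k, orderOf g = p ^ k) hA ?_ R C ?_ ?_ ?_ ?_ ?_ ?_ ?_]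
  · -- the count
    have h1 : Nat.card R = Nat.card (D.unipotentRadical F (J : Set ℕ)) :=
      Nat.card_congr (Subgroup.subgroupOfEquivOfLe
        (((urad_le_U _).trans Base.U_le_B).trans hBG)).toEquiv
    have h2 : Nat.card C = Nat.card ↥(D.unipotentRadical F (J : Set ℕ) ⊔ D.diagonalSubgroup F) :=
      Nat.card_congr (Subgroup.subgroupOfEquivOfLe (hCle.trans hBG)).toEquiv
    have hCB : C ≤ X.P.B := by
      rw [X.hPB]; exact fun x hx => hCle hx
    have h3 := Subgroup.relIndex_mul_relIndex (⊥ : Subgroup ↥(D.group F)) C X.P.B bot_le hCB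
    rw [Subgroup.relIndex_bot_left, Subgroup.relIndex_bot_left, h2, card_C X hnorm, X.card_PB,
      X.hB.card_B X.hT.toTabs, ← h1] at h3
    have hfin : Finite (D.diagonalSubgroup F) :=
      Finite.of_equiv _ (Subgroup.subgroupOfEquivOfLe (X.hB.H_le_group hTt)).toEquiv
    have h4 : Nat.card R * C.relIndex X.P.B = Nat.card (D.posUnipotent F) := by
      apply Nat.eq_of_mul_eq_mul_right (Nat.card_pos (α := D.diagonalSubgroup F))
      rw [← h3]; ring
    exact_mod_cast h4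
  · -- hAB
    intro x hx hxp
    obtain ⟨g, hg, h⟩ := exists_conj_mem_of_sylow Q _ (hQB.trans hBP) hx hxp
    exact ⟨g, hg, hQB h⟩
  · -- hRn
    intro g hg x hx
    exact conj_mem_urad hnorm (hmemP g hg) hx
  · -- hRC
    exact fun x hx => (le_sup_left : D.unipotentRadical F (J : Set ℕ) ≤ _) hx
  · -- hCB
    rw [X.hPB]; exact fun x hx => hCle hx
  · -- hRA
    intro x hx
    have hxQ : x ∈ (Q : Subgroup ↥(D.group F)) := by
      rw [hQ]; exact urad_le_U _ hx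
    obtain ⟨k, hk⟩ := (IsPGroup.iff_orderOf.1 Q.2) ⟨x, hxQ⟩
    exact ⟨k, (Subgroup.orderOf_mk x hxQ).symm.trans hk⟩
  · -- hCA
    intro x hx hxp
    have hxB : x ∈ X.P.B := by
      rw [X.hPB]; exact hCle hx
    obtain ⟨g, hg, h⟩ := exists_conj_mem_of_sylow Q _ hQB hxB hxp
    rw [hQ] at h
    have h' : (g : GL D.Idx F) * x * (g : GL D.Idx F)⁻¹ ∈ D.posUnipotent F := h
    have hgB : (g : GL D.Idx F) ∈ D.borelSubgroup F := (X.mem_B_iff g).1 hg
    have hxU : (x : GL D.Idx F) ∈ D.posUnipotent F :=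
      (Subgroup.mem_normalizer_iff.1 (hBnorm hgB) _).2 h'
    obtain ⟨u, hu, t, ht, e⟩ := (mem_C_decomp hnorm).1 hx
    replace e : (x : GL D.Idx F) = u * t := e
    have h5 : t ∈ D.posUnipotent F ⊓ D.diagonalSubgroup F := by
      refine ⟨?_, ht⟩
      have : t = u⁻¹ * (x : GL D.Idx F) := by rw [e]; group
      rw [this]
      exact (D.posUnipotent F).mul_mem ((D.posUnipotent F).inv_mem (urad_le_U _ hu)) hxU
    rw [X.hB.U_inf_H X.hT.toTabs, Subgroup.mem_bot] at h5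
    show (x : GL D.Idx F) ∈ D.unipotentRadical F (J : Set ℕ)
    rw [e, h5, mul_one]; exact hu
  · -- h1
    intro n hn t ht
    have hnN : (n : GL D.Idx F) ∈ D.monomialSubgroup F := (X.mem_N_iff n).1 (NK_le_N X hJ' hn)
    obtain ⟨u, hu, h, hh, e⟩ := (mem_C_decomp hnorm).1 ht
    replace e : (t : GL D.Idx F) = u * h := e
    rw [X.mem_B_iff]
    show (n : GL D.Idx F) * t * (n : GL D.Idx F)⁻¹ ∈ D.borelSubgroup F
    have e2 : (n : GL D.Idx F) * t * (n : GL D.Idx F)⁻¹ =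
        ((n : GL D.Idx F) * u * (n : GL D.Idx F)⁻¹) * ((n : GL D.Idx F) * h * (n : GL D.Idx F)⁻¹) := by
      rw [e]; group
    rw [e2]
    exact mul_mem (Base.U_le_B (urad_le_U _ (conj_mem_urad hnorm (hmemP n (hNKP hn)) hu)))
      (Base.H_le_B ((X.hB.N_conj_H hTt hnN).1 _ hh))
  · -- h2
    intro n hn _ hno x hx hx'
    have hnN : n ∈ X.P.N := NK_le_N X hJ' hn
    exact mem_C_of_conj_mem_B X hnorm ⟨n, hnN⟩ (hmemP n (hNKP hn))
      (neg_of_no_ascent X hd hc hJ' ⟨n, hnN⟩ hn hno) ((X.mem_B_iff x).1 hx) ((X.mem_B_iff _).1 hx')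

end Cfsg.Agent.Lib.Helper36.BNSt
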