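import Cfsg.Agent.Lib.Helper36.BNSt.G3

/-!
# Chevalley glue for the uniqueness of the defect zero character: the rank one parabolic subgroups
-/

set_option autoImplicit false

namespace Cfsg.Agent.Lib.Helper36.BNSt

open Cfsg Cfsg.Lie Cfsg.Agent.Lib.Helper6.BN Cfsg.Agent.Lib.Helper18

variable {D : ChevalleyDatum} {F : Type*} [Field F] (X : BNData D F)

/-! ### in `GL` -/

lemma B_le_normalizer_Up (i : Fin D.rank) :
    D.borelSubgroup F ≤ Subgroup.normalizer (X.hB.Up i : Set (GL D.Idx F)) := by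
  have hTt := X.hT.tab
  unfold ChevalleyDatum.borelSubgroup
  apply sup_le
  · rw [← X.hB.Up_sup_root hTt i.2]
    exact sup_le Subgroup.le_normalizer (X.hB.xg_conj_Up X.hT.ideal hTt i.2 (Or.inl rfl))
  · unfold Base.Up
    rw [Subgroup.le_normalizer_closure_iff]
    rintro h hh _ ⟨s, u, hs, rfl⟩
    obtain ⟨c, _, hc⟩ := X.hB.H_conj_xg hh hs.1.1
    rw [hc]
    exact X.hB.xg_mem_Up hs _

lemma ng_mem_normalizer_Up (i : Fin D.rank) :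
    X.hB.ng (D.simple i) 1 ∈ Subgroup.normalizer (X.hB.Up i : Set (GL D.Idx F)) := by
  have hTt := X.hT.tab
  rw [Subgroup.mem_normalizer_iff]
  intro h
  constructor
  · exact fun hh => X.hB.ng_conj_Up hTt i.2 hh
  · intro hh
    have := X.hB.ng_inv_conj_Up hTt i.2 hh
    have e : (X.hB.ng (D.simple i) 1)⁻¹ * (X.hB.ng (D.simple i) 1 * h * (X.hB.ng (D.simple i) 1)⁻¹) *
        X.hB.ng (D.simple i) 1 = h := by group
    rwa [e] at this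

lemma eq_zero_of_xg_mem_Up (i : Fin D.rank) {a : F} (h : X.hB.xg (D.simple i) a ∈ X.hB.Up i) : a = 0 := by
  have hTt := X.hT.tab
  have hp := hTt.simple_lt i i.2
  obtain ⟨η, hη, hc⟩ := X.hB.ng_conj_xg i.2 hp
  have h1 := X.hB.Up_le_U i (X.hB.ng_conj_Up hTt i.2 h)
  rw [(hc a).1, hTt.refl_simple' i.2] at h1
  have h2 : X.hB.xg (D.neg (D.simple i)) (η * a) ∈ D.posUnipotent F ⊓ D.negUnipotent F :=
    ⟨h1, X.hB.xg_mem_neg (hTt.isNeg_neg (hTt.isPos_simple i.2)) _⟩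
  rw [X.hB.U_inf_V X.hT.toTabs, Subgroup.mem_bot, X.hB.xg_eq_one_iff (hTt.neg_lt hp)] at h2
  rcases hη with rfl | rfl
  · simpa using h2
  · simpa using h2

/-- `x_{-p}(b) = x_p(b⁻¹) n_p(-b⁻¹) x_p(b⁻¹)`. -/
lemma xg_neg_eq (r : ℕ) {b : F} (hb : b ≠ 0) :
    X.hB.xg (D.neg r) b = X.hB.xg r b⁻¹ * X.hB.ng r (-b⁻¹) * X.hB.xg r b⁻¹ := by
  have e : -(-b⁻¹)⁻¹ = b := by
    rw [inv_neg, inv_inv, neg_neg]
  have h1 : X.hB.ng r (-b⁻¹) = X.hB.xg r (-b⁻¹) * X.hB.xg (D.neg r) b * X.hB.xg r (-b⁻¹) := by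
    unfold Base.ng
    rw [e]
  rw [h1, ← X.hB.xg_inv]
  group

/-- `n⁻¹ h(c) n = h(-1) h(-c)⁻¹`. -/
lemma ng_inv_hg_ng (r : ℕ) (c : F) :
    (X.hB.ng r 1)⁻¹ * X.hB.hg r c * X.hB.ng r 1 = X.hB.hg r (-1) * (X.hB.hg r (-c))⁻¹ := by
  unfold Base.hg
  rw [← X.hB.ng_inv r 1, ← X.hB.ng_inv r c]
  group

/-- the rank one relation. -/
lemma rank_one_rel (i : Fin D.rank) : ∃ η : F, (η = 1 ∨ η = -1) ∧ ∀ a : F, a ≠ 0 →
    X.hB.ng (D.simple i) 1 * X.hB.xg (D.simple i) a * (X.hB.ng (D.simple i) 1)⁻¹ =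
      X.hB.xg (D.simple i) (η * a)⁻¹ * X.hB.ng (D.simple i) 1 *
        ((X.hB.ng (D.simple i) 1)⁻¹ * X.hB.hg (D.simple i) (-(η * a)⁻¹) * X.hB.ng (D.simple i) 1) *
        X.hB.xg (D.simple i) (η * a)⁻¹ := by
  have hTt := X.hT.tab
  have hp := hTt.simple_lt i i.2
  obtain ⟨η, hη, hc⟩ := X.hB.ng_conj_xg i.2 hp
  refine ⟨η, hη, fun a ha => ?_⟩
  have hb : η * a ≠ 0 := mul_ne_zero (by rcases hη with rfl | rfl <;> simp) ha
  rw [(hc a).1, hTt.refl_simple' i.2, xg_neg_eq X _ hb, X.hB.ng_eq_hg_mul _ (-(η * a)⁻¹)]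
  group

end Cfsg.Agent.Lib.Helper36.BNSt
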