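import Cfsg.Agent.Lib.Helper36.BNSt.Defs2

set_option autoImplicit false

namespace Cfsg.Agent.Lib.Helper36.BNSt

open Cfsg
open scoped ComplexConjugate

variable {G : Type*} [Group G] {V : Type*} [AddCommGroup V] [Module ℂ V] [FiniteDimensional ℂ V]

/-! ## Piece Q1 : fixed vectors and permutation characters -/

theorem finrank_fixS [Finite G] (ρ : Representation ℂ G V) (Z : Subgroup G) :
    (Module.finrank ℂ (fixS ρ Z) : ℂ) = (Nat.card Z : ℂ)⁻¹ * ∑ᶠ z : Z, ρ.character (z : G) := by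
  classical
  haveI : Fintype Z := Fintype.ofFinite Z
  set S : V →ₗ[ℂ] V := ∑ r : Z, ρ (r : G) with hS
  have hSv : ∀ v, S v = ∑ r : Z, ρ (r : G) v := by
    intro v
    simp only [hS, LinearMap.sum_apply]
  have hc0 : (Nat.card Z : ℂ) ≠ 0 := by
    exact_mod_cast (Nat.card_pos (α := Z)).ne'
  have hRS : ∀ r' ∈ Z, ∀ v, ρ r' (S v) = S v := by
    intro r' hr' v
    rw [hSv, map_sum]
    rw [← Equiv.sum_comp (Equiv.mulLeft (⟨r', hr'⟩ : Z)) (fun r : Z => ρ (r : G) v)]
    refine Finset.sum_congr rfl fun r _ => ?_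
    rw [← Module.End.mul_apply, ← map_mul]
    rfl
  have hid : ∀ v ∈ fixS ρ Z, S v = (Nat.card Z : ℂ) • v := by
    intro v hv
    rw [hSv]
    have : ∀ r : Z, ρ (r : G) v = v := fun r => mem_fixS.mp hv r r.2
    simp only [this, Finset.sum_const, Finset.card_univ]
    rw [Nat.cast_smul_eq_nsmul, Nat.card_eq_fintype_card]
  have hproj : LinearMap.IsProj (fixS ρ Z) ((Nat.card Z : ℂ)⁻¹ • S) := by
    constructor
    · intro v
      rw [LinearMap.smul_apply]
      refine Submodule.smul_mem _ _ ?_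
      exact mem_fixS.mpr (fun r hr => hRS r hr v)
    · intro v hv
      rw [LinearMap.smul_apply, hid v hv, smul_smul, inv_mul_cancel₀ hc0, one_smul]
  rw [← hproj.trace, map_smul, smul_eq_mul, hS, map_sum, finsum_eq_sum_of_fintype]
  rfl

theorem classInner_character_fixedPointCharacter [Fintype G] (ρ : Representation ℂ G V) (Z : Subgroup G) :
    classInner ρ.character (fixedPointCharacter Z) = (Module.finrank ℂ (fixS ρ Z) : ℂ) := by
  classical
  haveI : Fintype Z := Fintype.ofFinite Z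
  haveI : Fintype (G ⧸ Z) := Fintype.ofFinite _
  rw [finrank_fixS, finsum_eq_sum_of_fintype]
  show (Nat.card G : ℂ)⁻¹ * ∑ g : G, ρ.character g * conj (fixedPointCharacter Z g) = _
  have hπ : ∀ g, conj (fixedPointCharacter Z g) = ∑ c : G ⧸ Z, if g • c = c then (1 : ℂ) else 0 := by
    intro g
    show conj ((Nat.card (MulAction.fixedBy (G ⧸ Z) g) : ℂ)) = _
    rw [map_natCast, Finset.sum_boole, Nat.card_eq_fintype_card, ← Fintype.card_subtype]
    rfl
  have hsw : ∑ g : G, ρ.character g * conj (fixedPointCharacter Z g) =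
      ∑ c : G ⧸ Z, ∑ g : G, if g • c = c then ρ.character g else 0 := by
    simp only [hπ, Finset.mul_sum]
    rw [Finset.sum_comm]
    refine Finset.sum_congr rfl fun c _ => Finset.sum_congr rfl fun g _ => ?_
    split_ifs <;> simp
  have hfib : ∀ c : G ⧸ Z, (∑ g : G, if g • c = c then ρ.character g else 0) =
      ∑ z : Z, ρ.character (z : G) := by
    intro c
    obtain ⟨x, rfl⟩ := QuotientGroup.mk_surjective c
    have hiff : ∀ g : G, g • (x : G ⧸ Z) = (x : G ⧸ Z) ↔ x⁻¹ * g * x ∈ Z := by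
      intro g
      have e : g • (x : G ⧸ Z) = ((g * x : G) : G ⧸ Z) := rfl
      rw [e, QuotientGroup.eq, ← Z.inv_mem_iff]
      have : ((g * x)⁻¹ * x)⁻¹ = x⁻¹ * g * x := by group
      rw [this]
    rw [← Equiv.sum_comp (MulAut.conj x).toEquiv
      (fun g : G => if g • (x : G ⧸ Z) = (x : G ⧸ Z) then ρ.character g else 0)]
    have h1 : ∀ h : G, (if ((MulAut.conj x).toEquiv h) • (x : G ⧸ Z) = (x : G ⧸ Z)
        then ρ.character ((MulAut.conj x).toEquiv h) else 0) = if h ∈ Z then ρ.character h else 0 := by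
      intro h
      have e1 : (MulAut.conj x).toEquiv h = x * h * x⁻¹ := rfl
      have e2 : x⁻¹ * (x * h * x⁻¹) * x = h := by group
      have e3 : (x * h * x⁻¹) • (x : G ⧸ Z) = (x : G ⧸ Z) ↔ h ∈ Z := by rw [hiff, e2]
      rw [e1, Representation.char_conj]
      by_cases hh : h ∈ Z
      · rw [if_pos hh, if_pos (e3.mpr hh)]
      · rw [if_neg hh, if_neg (fun h' => hh (e3.mp h'))]
    simp only [h1]
    rw [← Finset.sum_filter]
    exact (Finset.sum_subtype (Finset.univ.filter (· ∈ Z)) (by simp) (fun h => ρ.character h))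
  rw [hsw]
  simp only [hfib, Finset.sum_const, Finset.card_univ, nsmul_eq_mul]
  have hcard : (Nat.card G : ℂ) = (Fintype.card (G ⧸ Z) : ℂ) * (Nat.card Z : ℂ) := by
    rw [Subgroup.card_eq_card_quotient_mul_card_subgroup Z, Nat.card_eq_fintype_card (α := G ⧸ Z)]
    push_cast
    rfl
  have h1 : (Fintype.card (G ⧸ Z) : ℂ) ≠ 0 := by
    exact_mod_cast (Fintype.card_pos (α := G ⧸ Z)).ne'
  have h2 : (Nat.card Z : ℂ) ≠ 0 := by
    exact_mod_cast (Nat.card_pos (α := Z)).ne'
  rw [hcard]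
  field_simp

end Cfsg.Agent.Lib.Helper36.BNSt
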