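import Cfsg.Agent.Lib.Helper36.BNSt.Defs2

set_option autoImplicit false

namespace Cfsg.Agent.Lib.Helper36.BNSt

open Cfsg

variable {G : Type*} [Group G] {V : Type*} [AddCommGroup V] [Module ℂ V] [FiniteDimensional ℂ V]

/-! ## Piece Q3a : Harish-Chandra: the `R`-fixed vectors are generated by the `U`-fixed ones -/

omit [FiniteDimensional ℂ V] in
/-- the orbit of a non-zero vector spans an irreducible representation -/
theorem span_orbit_eq_top (ρ : Representation ℂ G V) (hirr : ρ.IsIrreducible) {v0 : V} (h0 : v0 ≠ 0) :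
    Submodule.span ℂ (Set.range fun g : G => ρ g v0) = ⊤ := by
  let T : Subrepresentation ρ :=
    { toSubmodule := Submodule.span ℂ (Set.range fun g : G => ρ g v0)
      apply_mem_toSubmodule := by
        intro g v hv
        have hle : Submodule.span ℂ (Set.range fun g : G => ρ g v0) ≤
            (Submodule.span ℂ (Set.range fun g : G => ρ g v0)).comap (ρ g) := by
          rw [Submodule.span_le]
          rintro _ ⟨h, rfl⟩
          show ρ g (ρ h v0) ∈ Submodule.span ℂ (Set.range fun g : G => ρ g v0)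
          rw [← Module.End.mul_apply, ← map_mul]
          exact Submodule.subset_span ⟨g * h, rfl⟩
        exact hle hv }
  rcases hirr.eq_bot_or_eq_top T with h | h
  · exfalso
    have h1 : v0 ∈ T.toSubmodule := Submodule.subset_span ⟨1, by simp⟩
    rw [h] at h1
    exact h0 ((Submodule.mem_bot ℂ).mp h1)
  · exact congrArg Subrepresentation.toSubmodule h

theorem fixS_le_span [Finite G] {A : Type*} (ρ : Representation ℂ G V) (hirr : ρ.IsIrreducible) (x : A → G)
    (R U Y : Subgroup G) (n : G) (N₀ : Set G)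
    (hU : ∀ u, u ∈ U ↔ ∃ r ∈ R, ∃ a, u = r * x a)
    (hRY : ∀ y ∈ Y, ∀ r ∈ R, y * r * y⁻¹ ∈ R) (hxY : ∀ a, x a ∈ Y) (hnY : n ∈ Y)
    (hG : ∀ g : G, ∃ y ∈ Y, ∃ n' ∈ N₀, ∃ u ∈ U, g = y * n' * u)
    (hN : ∀ n' ∈ N₀, (∀ a, n'⁻¹ * x a * n' ∈ U) ∨ (∀ a, n'⁻¹ * (n * x a * n⁻¹) * n' ∈ U))
    (hne : fixS ρ U ≠ ⊥) :
    fixS ρ R ≤ Submodule.span ℂ {w | ∃ y ∈ Y, ∃ v ∈ fixS ρ U, w = ρ y v} := by
  classical
  haveI : Fintype R := Fintype.ofFinite R
  set W1 : Submodule ℂ V := Submodule.span ℂ {w | ∃ y ∈ Y, ∃ v ∈ fixS ρ U, w = ρ y v} with hW1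
  obtain ⟨v0, hv0, hv00⟩ := (Submodule.ne_bot_iff _).mp hne
  set S : V →ₗ[ℂ] V := ∑ r : R, ρ (r : G) with hS
  have hSv : ∀ v, S v = ∑ r : R, ρ (r : G) v := by
    intro v
    simp only [hS, LinearMap.sum_apply]
  have hc0 : (Fintype.card R : ℂ) ≠ 0 := by
    exact_mod_cast (Fintype.card_pos (α := R)).ne'
  -- (i)
  have hRS : ∀ r' ∈ R, ∀ v, ρ r' (S v) = S v := by
    intro r' hr' v
    rw [hSv, map_sum]
    rw [← Equiv.sum_comp (Equiv.mulLeft (⟨r', hr'⟩ : R)) (fun r : R => ρ (r : G) v)]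
    refine Finset.sum_congr rfl fun r _ => ?_
    rw [← Module.End.mul_apply, ← map_mul]
    rfl
  -- (ii)
  have hid : ∀ v ∈ fixS ρ R, S v = (Fintype.card R : ℂ) • v := by
    intro v hv
    rw [hSv]
    have : ∀ r : R, ρ (r : G) v = v := fun r => mem_fixS.mp hv r r.2
    simp only [this, Finset.sum_const, Finset.card_univ]
    rw [Nat.cast_smul_eq_nsmul]
  -- (iii)
  have hYS : ∀ y ∈ Y, ∀ v, ρ y (S v) = S (ρ y v) := by
    intro y hy v
    let σ : R → R := fun r => ⟨y * r * y⁻¹, hRY y hy r r.2⟩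
    have hσ : Function.Bijective σ := by
      rw [← Finite.injective_iff_bijective]
      intro r1 r2 h
      have h1 : y * r1 * y⁻¹ = y * r2 * y⁻¹ := congrArg Subtype.val h
      exact Subtype.ext (mul_left_cancel (mul_right_cancel h1))
    rw [hSv, hSv, map_sum]
    rw [← Equiv.sum_comp (Equiv.ofBijective σ hσ) (fun r : R => ρ (r : G) (ρ y v))]
    refine Finset.sum_congr rfl fun r _ => ?_
    rw [← Module.End.mul_apply, ← Module.End.mul_apply, ← map_mul, ← map_mul]
    congr 2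
    simp only [Equiv.ofBijective_apply, σ]
    group
  -- membership in `fixS ρ U`
  have hmemE : ∀ v1, (∀ r ∈ R, ρ r v1 = v1) → (∀ a, ρ (x a) v1 = v1) → v1 ∈ fixS ρ U := by
    intro v1 h1 h2
    rw [mem_fixS]
    intro u hu
    obtain ⟨r, hr, a, rfl⟩ := (hU u).mp hu
    rw [map_mul, Module.End.mul_apply, h2 a, h1 r hr]
  -- key
  have key : ∀ g, S (ρ g v0) ∈ W1 := by
    intro g
    obtain ⟨y, hy, n', hn', u, hu, rfl⟩ := hG g
    have e1 : ρ (y * n' * u) v0 = ρ y (ρ n' v0) := by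
      rw [map_mul, Module.End.mul_apply, mem_fixS.mp hv0 u hu, map_mul, Module.End.mul_apply]
    rw [e1, ← hYS y hy]
    rcases hN n' hn' with h | h
    · -- case 1
      have hE : S (ρ n' v0) ∈ fixS ρ U := by
        refine hmemE _ (fun r hr => hRS r hr _) ?_
        intro a
        rw [hYS _ (hxY a)]
        congr 1
        have e2 : x a * n' = n' * (n'⁻¹ * x a * n') := by group
        rw [← Module.End.mul_apply, ← map_mul, e2, map_mul, Module.End.mul_apply,
          mem_fixS.mp hv0 _ (h a)]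
      exact Submodule.subset_span ⟨y, hy, _, hE, rfl⟩
    · -- case 2
      have hninv : n⁻¹ ∈ Y := Y.inv_mem hnY
      have hE : S (ρ n⁻¹ (ρ n' v0)) ∈ fixS ρ U := by
        refine hmemE _ (fun r hr => hRS r hr _) ?_
        intro a
        rw [hYS _ (hxY a)]
        congr 1
        have e2 : x a * (n⁻¹ * n') = (n⁻¹ * n') * (n'⁻¹ * (n * x a * n⁻¹) * n') := by group
        calc ρ (x a) (ρ n⁻¹ (ρ n' v0)) = ρ (x a * (n⁻¹ * n')) v0 := by
              simp only [map_mul, Module.End.mul_apply]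
          _ = ρ (n⁻¹ * n') (ρ (n'⁻¹ * (n * x a * n⁻¹) * n') v0) := by
              rw [e2, map_mul, Module.End.mul_apply]
          _ = ρ n⁻¹ (ρ n' v0) := by
              rw [mem_fixS.mp hv0 _ (h a), map_mul, Module.End.mul_apply]
      have e3 : S (ρ n' v0) = ρ n (S (ρ n⁻¹ (ρ n' v0))) := by
        rw [hYS n hnY, ← Module.End.mul_apply (ρ n), ← map_mul, mul_inv_cancel, map_one,
          Module.End.one_apply]
      refine Submodule.subset_span ⟨y * n, Y.mul_mem hy hnY, _, hE, ?_⟩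
      rw [e3, map_mul, Module.End.mul_apply]
  have hall : ∀ w, S w ∈ W1 := by
    intro w
    have hle : Submodule.span ℂ (Set.range fun g : G => ρ g v0) ≤ W1.comap S := by
      rw [Submodule.span_le]
      rintro _ ⟨g, rfl⟩
      exact key g
    rw [span_orbit_eq_top ρ hirr hv00] at hle
    exact hle (Submodule.mem_top)
  intro w hw
  have h1 := hall w
  rw [hid w hw] at h1
  have := W1.smul_mem (Fintype.card R : ℂ)⁻¹ h1
  rwa [smul_smul, inv_mul_cancel₀ hc0, one_smul] at this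

end Cfsg.Agent.Lib.Helper36.BNSt
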