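import Cfsg.Agent.Lib.Helper36.BNSt.Defs2

set_option autoImplicit false

namespace Cfsg.Agent.Lib.Helper36.BNSt

open Cfsg

variable {G : Type*} [Group G] {V : Type*} [AddCommGroup V] [Module ℂ V] [FiniteDimensional ℂ V]

/-! ## Piece Q3b : all isotypic parts have the same dimension -/

theorem finrank_isoS [Finite G] {A : Type*} [AddCommGroup A] [Finite A] (ρ : Representation ℂ G V) (x : A → G)
    (hx : ∀ a b, x (a + b) = x a * x b) (R : Subgroup G) (hxR : ∀ a, ∀ r ∈ R, x a * r * (x a)⁻¹ ∈ R)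
    (hinj : ∀ r ∈ R, ∀ a, r * x a = 1 → a = 0)
    (hvan : ∀ r ∈ R, ∀ a, r * x a ≠ 1 → ρ.character (r * x a) = 0) (ψ : AddChar A ℂ) :
    (Module.finrank ℂ (isoS ρ R x ψ) : ℂ) = ρ.character 1 / ((Nat.card R : ℂ) * (Nat.card A : ℂ)) := by
  classical
  haveI : Fintype A := Fintype.ofFinite A
  haveI : Fintype R := Fintype.ofFinite R
  have hx0 : x 0 = 1 := by
    have h := hx 0 0
    rw [add_zero] at h
    exact (mul_left_cancel (a := x 0) (by rw [mul_one]; exact h)).symm
  set S : V →ₗ[ℂ] V := ∑ r : R, ∑ a : A, ψ (-a) • ρ ((r : G) * x a) with hS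
  have hSv : ∀ v, S v = ∑ r : R, ∑ a : A, ψ (-a) • ρ ((r : G) * x a) v := by
    intro v
    simp only [hS, LinearMap.sum_apply, LinearMap.smul_apply]
  set c : ℂ := (Nat.card R : ℂ) * (Nat.card A : ℂ) with hc
  have hc0 : c ≠ 0 := by
    have h1 : (Nat.card R : ℂ) ≠ 0 := by exact_mod_cast (Nat.card_pos (α := R)).ne'
    have h2 : (Nat.card A : ℂ) ≠ 0 := by exact_mod_cast (Nat.card_pos (α := A)).ne'
    exact mul_ne_zero h1 h2
  -- (a)
  have hRS : ∀ r' ∈ R, ∀ v, ρ r' (S v) = S v := by
    intro r' hr' v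
    rw [hSv, map_sum]
    rw [← Equiv.sum_comp (Equiv.mulLeft (⟨r', hr'⟩ : R))
      (fun r : R => ∑ a : A, ψ (-a) • ρ ((r : G) * x a) v)]
    refine Finset.sum_congr rfl fun r _ => ?_
    rw [map_sum]
    refine Finset.sum_congr rfl fun a _ => ?_
    rw [map_smul, ← Module.End.mul_apply, ← map_mul]
    simp only [Equiv.coe_mulLeft, Subgroup.coe_mul, mul_assoc]
  -- (b)
  have hxS : ∀ b v, ρ (x b) (S v) = ψ b • S v := by
    intro b v
    let σ : R → R := fun r => ⟨x b * r * (x b)⁻¹, hxR b r r.2⟩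
    have hσ : Function.Bijective σ := by
      rw [← Finite.injective_iff_bijective]
      intro r1 r2 h
      have h1 : x b * r1 * (x b)⁻¹ = x b * r2 * (x b)⁻¹ := congrArg Subtype.val h
      exact Subtype.ext (mul_left_cancel (mul_right_cancel h1))
    rw [hSv, map_sum, Finset.smul_sum]
    rw [← Equiv.sum_comp (Equiv.ofBijective σ hσ)
      (fun r : R => ψ b • ∑ a : A, ψ (-a) • ρ ((r : G) * x a) v)]
    refine Finset.sum_congr rfl fun r _ => ?_
    rw [map_sum, Finset.smul_sum]
    rw [← Equiv.sum_comp (Equiv.addLeft b)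
      (fun a : A => ψ b • ψ (-a) • ρ (((Equiv.ofBijective σ hσ) r : R) * x a) v)]
    refine Finset.sum_congr rfl fun a _ => ?_
    rw [map_smul, ← Module.End.mul_apply, ← map_mul, smul_smul]
    have e1 : x b * ((r : G) * x a) = (((Equiv.ofBijective σ hσ) r : R) : G) * x ((Equiv.addLeft b) a) := by
      simp only [Equiv.ofBijective_apply, Equiv.coe_addLeft, σ, hx]
      group
    have e2 : ψ b * ψ (-(Equiv.addLeft b) a) = ψ (-a) := by
      rw [← AddChar.map_add_eq_mul]
      congr 1
      simp only [Equiv.coe_addLeft]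
      abel
    rw [e1, e2]
  -- (2)
  have hid : ∀ v ∈ isoS ρ R x ψ, S v = c • v := by
    intro v hv
    obtain ⟨h1, h2⟩ := mem_isoS.mp hv
    rw [hSv]
    have : ∀ r : R, ∀ a : A, ψ (-a) • ρ ((r : G) * x a) v = v := by
      intro r a
      rw [map_mul, Module.End.mul_apply, h2 a, map_smul, h1 r r.2, smul_smul,
        ← AddChar.map_add_eq_mul, neg_add_cancel, AddChar.map_zero_eq_one, one_smul]
    simp only [this, Finset.sum_const, Finset.card_univ, hc, Nat.card_eq_fintype_card]
    rw [smul_smul, ← Nat.cast_smul_eq_nsmul ℂ]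
    push_cast
    rfl
  have hproj : LinearMap.IsProj (isoS ρ R x ψ) (c⁻¹ • S) := by
    constructor
    · intro v
      rw [LinearMap.smul_apply]
      refine Submodule.smul_mem _ _ ?_
      exact mem_isoS.mpr ⟨fun r hr => hRS r hr v, fun a => hxS a v⟩
    · intro v hv
      rw [LinearMap.smul_apply, hid v hv, smul_smul, inv_mul_cancel₀ hc0, one_smul]
  have htr := hproj.trace
  rw [← htr, map_smul, smul_eq_mul]
  have htS : LinearMap.trace ℂ V S = ρ.character 1 := by
    rw [hS, map_sum]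
    simp only [map_sum, map_smul, smul_eq_mul]
    have hch : ∀ g, LinearMap.trace ℂ V (ρ g) = ρ.character g := fun g => rfl
    simp only [hch]
    rw [Finset.sum_eq_single (1 : R)]
    · rw [Finset.sum_eq_single (0 : A)]
      · simp [hx0]
      · intro a _ ha
        rw [hvan _ (1 : R).2 a (fun h => ha (hinj _ (1 : R).2 a h)), mul_zero]
      · intro h; exact absurd (Finset.mem_univ _) h
    · intro r _ hr
      refine Finset.sum_eq_zero fun a _ => ?_
      rw [hvan r r.2 a ?_, mul_zero]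
      intro h
      have ha := hinj r r.2 a h
      rw [ha, hx0, mul_one] at h
      exact hr (Subtype.ext h)
    · intro h; exact absurd (Finset.mem_univ _) h
  rw [htS]
  field_simp

end Cfsg.Agent.Lib.Helper36.BNSt
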