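import Cfsg.Agent.Lib.Helper36.BNSt.Defs2

set_option autoImplicit false

namespace Cfsg.Agent.Lib.Helper36.BNSt

open Cfsg

variable {G : Type*} [Group G] {V : Type*} [AddCommGroup V] [Module ℂ V] [FiniteDimensional ℂ V]

/-! ## Piece Q3c : surjective, hence injective -/

theorem inj_of_span {A : Type*} [AddCommGroup A] [Fintype A] (ρ : Representation ℂ G V) (x : A → G)
    (hx : ∀ a b, x (a + b) = x a * x b) (R U Y B₀ : Subgroup G) (n : G)
    (hU : ∀ u, u ∈ U ↔ ∃ r ∈ R, ∃ a, u = r * x a)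
    (hRY : ∀ y ∈ Y, ∀ r ∈ R, y * r * y⁻¹ ∈ R) (hxY : ∀ a, x a ∈ Y) (hnY : n ∈ Y)
    (hY : ∀ y ∈ Y, y ∈ B₀ ∨ ∃ a, ∃ b ∈ B₀, y = x a * n * b)
    (hB₀ : ∀ b ∈ B₀, ∀ u ∈ U, b⁻¹ * u * b ∈ U)
    (hspan : fixS ρ R ≤ Submodule.span ℂ {w | ∃ y ∈ Y, ∃ v ∈ fixS ρ U, w = ρ y v})
    (hdim : ∀ ψ : AddChar A ℂ, Module.finrank ℂ (isoS ρ R x ψ) = Module.finrank ℂ (fixS ρ U))
    (ψ : AddChar A ℂ) (hψ : ∃ a, ψ a ≠ 1) (v : V) (hv : v ∈ fixS ρ U)
    (h0 : ∑ a : A, ψ a • ρ (x a) (ρ n v) = 0) : v = 0 := by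
  classical
  have hx0 : x 0 = 1 := by
    have h := hx 0 0
    rw [add_zero] at h
    exact (mul_left_cancel (a := x 0) (by rw [mul_one]; exact h)).symm
  have hRU : ∀ r ∈ R, r ∈ U := fun r hr => (hU r).mpr ⟨r, hr, 0, by rw [hx0, mul_one]⟩
  have hxU : ∀ a, x a ∈ U := fun a => (hU _).mpr ⟨1, R.one_mem, a, by rw [one_mul]⟩
  set Pi : V →ₗ[ℂ] V := ∑ a : A, ψ a • ρ (x a) with hPi
  have hPiv : ∀ w, Pi w = ∑ a : A, ψ a • ρ (x a) w := by
    intro w
    simp only [hPi, LinearMap.sum_apply, LinearMap.smul_apply]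
  -- P1
  have P1 : ∀ b w, Pi (ρ (x b) w) = ψ (-b) • Pi w := by
    intro b w
    rw [hPiv, hPiv, Finset.smul_sum]
    rw [← Equiv.sum_comp (Equiv.addRight b) (fun a : A => ψ (-b) • ψ a • ρ (x a) w)]
    refine Finset.sum_congr rfl fun a _ => ?_
    rw [← Module.End.mul_apply, ← map_mul, ← hx, smul_smul, ← AddChar.map_add_eq_mul]
    simp only [Equiv.coe_addRight]
    congr 2
    abel
  have P1' : ∀ b w, ρ (x b) (Pi w) = ψ (-b) • Pi w := by
    intro b w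
    rw [← P1, hPiv, hPiv, map_sum]
    refine Finset.sum_congr rfl fun a _ => ?_
    rw [map_smul, ← Module.End.mul_apply, ← Module.End.mul_apply, ← map_mul, ← map_mul, ← hx, ← hx,
      add_comm]
  have hsum0 : ∑ a : A, ψ a = 0 := AddChar.sum_eq_zero_iff_ne_zero.mpr (AddChar.ne_zero_iff.mpr hψ)
  have P2 : ∀ w ∈ fixS ρ U, Pi w = 0 := by
    intro w hw
    rw [hPiv]
    have : ∀ a : A, ψ a • ρ (x a) w = ψ a • w := fun a => by rw [mem_fixS.mp hw _ (hxU a)]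
    simp only [this]
    rw [← Finset.sum_smul, hsum0, zero_smul]
  have P3 : ∀ z ∈ isoS ρ R x ψ⁻¹, Pi z = (Fintype.card A : ℂ) • z := by
    intro z hz
    rw [hPiv]
    have : ∀ a : A, ψ a • ρ (x a) z = z := by
      intro a
      rw [(mem_isoS.mp hz).2 a, smul_smul, AddChar.inv_apply, ← AddChar.map_add_eq_mul,
        add_neg_cancel, AddChar.map_zero_eq_one, one_smul]
    simp only [this, Finset.sum_const, Finset.card_univ]
    rw [Nat.cast_smul_eq_nsmul]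
  -- F1
  have F1 : ∀ w ∈ fixS ρ U, (Pi ∘ₗ ρ n) w ∈ isoS ρ R x ψ⁻¹ := by
    intro w hw
    rw [LinearMap.comp_apply]
    refine mem_isoS.mpr ⟨?_, ?_⟩
    · intro r hr
      rw [hPiv, map_sum]
      refine Finset.sum_congr rfl fun a _ => ?_
      rw [map_smul]
      congr 1
      have hy : (x a * n)⁻¹ ∈ Y := Y.inv_mem (Y.mul_mem (hxY a) hnY)
      have h1 := hRY _ hy r hr
      have h2 := mem_fixS.mp hw _ (hRU _ h1)
      have e1 : r * (x a * n) = (x a * n) * ((x a * n)⁻¹ * r * ((x a * n)⁻¹)⁻¹) := by group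
      calc ρ r (ρ (x a) (ρ n w)) = ρ (r * (x a * n)) w := by
            simp only [map_mul, Module.End.mul_apply]
        _ = ρ (x a * n) (ρ ((x a * n)⁻¹ * r * ((x a * n)⁻¹)⁻¹) w) := by
            rw [e1, map_mul, Module.End.mul_apply]
        _ = ρ (x a) (ρ n w) := by
            rw [h2]
            simp only [map_mul, Module.End.mul_apply]
    · intro a
      rw [P1', AddChar.inv_apply]
  -- F2
  set M : Submodule ℂ V := Submodule.map (Pi ∘ₗ ρ n) (fixS ρ U) with hM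
  have hBE : ∀ b ∈ B₀, ∀ w ∈ fixS ρ U, ρ b w ∈ fixS ρ U := by
    intro b hb w hw
    rw [mem_fixS]
    intro u hu
    have h1 := mem_fixS.mp hw _ (hB₀ b hb u hu)
    have e1 : u * b = b * (b⁻¹ * u * b) := by group
    calc ρ u (ρ b w) = ρ (u * b) w := by rw [map_mul, Module.End.mul_apply]
      _ = ρ b (ρ (b⁻¹ * u * b) w) := by rw [e1, map_mul, Module.End.mul_apply]
      _ = ρ b w := by rw [h1]
  have hspanM : Submodule.span ℂ {w | ∃ y ∈ Y, ∃ v ∈ fixS ρ U, w = ρ y v} ≤ M.comap Pi := by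
    rw [Submodule.span_le]
    rintro w ⟨y, hy, v0, hv0, rfl⟩
    show Pi (ρ y v0) ∈ M
    rcases hY y hy with hb | ⟨a, b, hb, rfl⟩
    · rw [P2 _ (hBE y hb v0 hv0)]
      exact M.zero_mem
    · have e1 : ρ (x a * n * b) v0 = ρ (x a) (ρ n (ρ b v0)) := by
        simp only [map_mul, Module.End.mul_apply]
      rw [e1, P1]
      refine M.smul_mem _ ?_
      exact Submodule.mem_map.mpr ⟨ρ b v0, hBE b hb v0 hv0, rfl⟩
  have hcard : (Fintype.card A : ℂ) ≠ 0 := by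
    exact_mod_cast (Fintype.card_pos (α := A)).ne'
  have F2 : isoS ρ R x ψ⁻¹ ≤ M := by
    intro z hz
    have h1 : z ∈ fixS ρ R := mem_fixS.mpr (mem_isoS.mp hz).1
    have h2 : Pi z ∈ M := hspanM (hspan h1)
    rw [P3 z hz] at h2
    have := M.smul_mem (Fintype.card A : ℂ)⁻¹ h2
    rwa [smul_smul, inv_mul_cancel₀ hcard, one_smul] at this
  set Lr : fixS ρ U →ₗ[ℂ] isoS ρ R x ψ⁻¹ := LinearMap.restrict (Pi ∘ₗ ρ n) F1 with hLr
  have hsurj : Function.Surjective Lr := by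
    intro z
    obtain ⟨w, hw, hwz⟩ := Submodule.mem_map.mp (F2 z.2)
    exact ⟨⟨w, hw⟩, Subtype.ext hwz⟩
  have hinj : Function.Injective Lr :=
    (LinearMap.injective_iff_surjective_of_finrank_eq_finrank (hdim ψ⁻¹).symm).mpr hsurj
  have h1 : Lr ⟨v, hv⟩ = 0 := by
    apply Subtype.ext
    show (Pi ∘ₗ ρ n) v = 0
    rw [LinearMap.comp_apply, hPiv]
    exact h0
  have h2 := hinj (h1.trans (map_zero Lr).symm)
  exact congrArg Subtype.val h2

end Cfsg.Agent.Lib.Helper36.BNSt
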