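import Cfsg.Agent.Lib.Helper36.BNSt.Defs2

set_option autoImplicit false

namespace Cfsg.Agent.Lib.Helper36.BNSt

open Cfsg

variable {G : Type*} [Group G] {V : Type*} [AddCommGroup V] [Module ℂ V]

/-! ## Piece Q4a : no vector is fixed by `⟨U, n⟩` -/

theorem fixS_eq_bot_of_inj {A : Type*} [AddCommGroup A] [Fintype A] [Nontrivial A] (ρ : Representation ℂ G V)
    (x : A → G) (U Y : Subgroup G) (n : G) (hUY : U ≤ Y) (hnY : n ∈ Y) (hxU : ∀ a, x a ∈ U)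
    (hinj : ∀ ψ : AddChar A ℂ, (∃ a, ψ a ≠ 1) → ∀ v ∈ fixS ρ U, ∑ a : A, ψ a • ρ (x a) (ρ n v) = 0 → v = 0) :
    fixS ρ Y = ⊥ := by
  classical
  rw [eq_bot_iff]
  intro v hv
  rw [Submodule.mem_bot]
  obtain ⟨a₀, ha₀⟩ := exists_ne (0 : A)
  obtain ⟨ψ, hψ⟩ := (AddChar.exists_apply_ne_zero (α := A) (a := a₀)).mpr ha₀
  have hvU : v ∈ fixS ρ U := fun u hu => hv u (hUY hu)
  refine hinj ψ ⟨a₀, hψ⟩ v hvU ?_
  have h1 : ∀ a : A, ψ a • ρ (x a) (ρ n v) = ψ a • v := by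
    intro a
    rw [hv n hnY, hvU _ (hxU a)]
  rw [Finset.sum_congr rfl (fun a _ => h1 a), ← Finset.sum_smul]
  have h2 : ∑ a : A, ψ a = 0 := by
    rw [AddChar.sum_eq_zero_iff_ne_zero]
    intro h
    apply hψ
    rw [h]
    simp
  rw [h2, zero_smul]

end Cfsg.Agent.Lib.Helper36.BNSt
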