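import Cfsg.Agent.Lib.Helper36.BNSt.Defs2

set_option autoImplicit false

namespace Cfsg.Agent.Lib.Helper36.BNSt

open Cfsg

variable {G : Type*} [Group G] {V : Type*} [AddCommGroup V] [Module ℂ V]

/-! ## Piece Q4b : the torus of the rank one group acts trivially on the `U`-fixed vectors -/

theorem torus_const_of_inj {A : Type*} [AddCommGroup A] [Fintype A] (ρ : Representation ℂ G V) (x : A → G)
    (hx : ∀ a b, x (a + b) = x a * x b) (R U : Subgroup G) (n : G)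
    (hU : ∀ u, u ∈ U ↔ ∃ r ∈ R, ∃ a, u = r * x a)
    (hxR : ∀ a, ∀ r ∈ R, (x a)⁻¹ * r * x a ∈ R) (hnR : ∀ r ∈ R, n⁻¹ * r * n ∈ R)
    (hn2 : ∀ u ∈ U, (n * n)⁻¹ * u * (n * n) ∈ U ∧ (n * n) * u * (n * n)⁻¹ ∈ U)
    (ι : A → A) (g w : A → G) (hι0 : ∀ a, a ≠ 0 → ι a ≠ 0) (hιinj : ∀ a b, a ≠ 0 → b ≠ 0 → ι a = ι b → a = b)
    (hg : ∀ a, a ≠ 0 → ∀ u ∈ U, (g a)⁻¹ * u * g a ∈ U) (hw : ∀ a, a ≠ 0 → w a ∈ U)
    (hrel : ∀ a, a ≠ 0 → n * x a * n⁻¹ = x (ι a) * n * g a * w a)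
    (hinj : ∀ ψ : AddChar A ℂ, (∃ a, ψ a ≠ 1) → ∀ v ∈ fixS ρ U, ∑ a : A, ψ a • ρ (x a) (ρ n v) = 0 → v = 0) :
    ∀ a b, a ≠ 0 → b ≠ 0 → ∀ v ∈ fixS ρ U, ρ (g a) v = ρ (g b) v := by
  classical
  have hm : ∀ a b (y : V), ρ (a * b) y = ρ a (ρ b y) := fun a b y => by rw [map_mul]; rfl
  have hx0 : x 0 = 1 := by
    have h := hx 0 0
    rw [add_zero] at h
    exact (mul_left_cancel (a := x 0) (by rw [mul_one]; exact h)).symm
  have hRU : ∀ r ∈ R, r ∈ U := fun r hr => (hU r).mpr ⟨r, hr, 0, by rw [hx0, mul_one]⟩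
  have hxU : ∀ a, x a ∈ U := fun a => (hU _).mpr ⟨1, R.one_mem, a, by rw [one_mul]⟩
  have key : ∀ v' ∈ fixS ρ U, ∃ c : V, ∀ a₀, a₀ ≠ 0 → (Fintype.card A : ℂ) • ρ (g a₀) v' = c := by
    intro v' hv'
    obtain ⟨v, hv⟩ : ∃ v : V, v = ρ (n * n)⁻¹ v' := ⟨_, rfl⟩
    have hnnv : ρ (n * n) v = v' := by
      rw [hv, ← hm, mul_inv_cancel, map_one]; rfl
    have hvE : v ∈ fixS ρ U := by
      intro u hu
      have h1 := hv' _ (hn2 u hu).2
      calc ρ u v = ρ (n*n)⁻¹ (ρ ((n*n) * u * (n*n)⁻¹) v') := by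
            rw [hv, ← hm, ← hm]; congr 2; group
        _ = v := by rw [h1, hv]
    obtain ⟨τ, hτ⟩ : ∃ τ : V, τ = ∑ a : A, ρ (x a) (ρ n v) := ⟨_, rfl⟩
    have hterm : ∀ r ∈ R, ∀ c, ρ r (ρ (x c) (ρ n v)) = ρ (x c) (ρ n v) := by
      intro r hr c
      have h1 := hvE _ (hRU _ (hnR _ (hxR c r hr)))
      calc ρ r (ρ (x c) (ρ n v)) = ρ (x c) (ρ n (ρ (n⁻¹ * ((x c)⁻¹ * r * x c) * n) v)) := by
            rw [← hm, ← hm, ← hm, ← hm]; congr 2; group
        _ = ρ (x c) (ρ n v) := by rw [h1]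
    have hτE : τ ∈ fixS ρ U := by
      intro u hu
      obtain ⟨r, hr, b, rfl⟩ := (hU u).mp hu
      rw [hτ, map_sum]
      have h1 : ∀ a : A, ρ (r * x b) (ρ (x a) (ρ n v)) = ρ (x (b + a)) (ρ n v) := by
        intro a
        rw [hm, ← hm (x b), ← hx, hterm r hr]
      rw [Finset.sum_congr rfl (fun a _ => h1 a)]
      exact Fintype.sum_equiv (Equiv.addLeft b) _ _ (fun a => rfl)
    have hgE : ∀ a, a ≠ 0 → ρ (g a) v' ∈ fixS ρ U := by
      intro a ha u hu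
      have h1 := hv' _ (hg a ha u hu)
      calc ρ u (ρ (g a) v') = ρ (g a) (ρ ((g a)⁻¹ * u * g a) v') := by
            rw [← hm, ← hm]; congr 2; group
        _ = ρ (g a) v' := by rw [h1]
    have hnτ : ρ n τ = v' + ∑ a ∈ Finset.univ.erase (0 : A), ρ (x (ι a)) (ρ n (ρ (g a) v')) := by
      rw [hτ, map_sum, ← Finset.add_sum_erase Finset.univ _ (Finset.mem_univ (0 : A))]
      congr 1
      · rw [hx0, map_one, ← hnnv, hm]; rfl
      · refine Finset.sum_congr rfl (fun a ha => ?_)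
        have ha0 : a ≠ 0 := (Finset.mem_erase.mp ha).1
        calc ρ n (ρ (x a) (ρ n v)) = ρ (n * x a * n⁻¹) (ρ (n * n) v) := by
              rw [← hm, ← hm, ← hm]; congr 2; group
          _ = ρ (x (ι a)) (ρ n (ρ (g a) v')) := by
              rw [hnnv, hrel a ha0, hm, hv' _ (hw a ha0), hm, hm]
    set Φ : AddChar A ℂ → (V →ₗ[ℂ] V) := fun ψ => ∑ c : A, ψ c • ρ (x c) with hΦdef
    have hΦ : ∀ ψ y, Φ ψ y = ∑ c : A, ψ c • ρ (x c) y := by
      intro ψ y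
      simp [hΦdef, LinearMap.sum_apply]
    have hΦx : ∀ ψ b y, Φ ψ (ρ (x b) y) = ψ (-b) • Φ ψ y := by
      intro ψ b y
      rw [hΦ, hΦ, Finset.smul_sum]
      refine Fintype.sum_equiv (Equiv.addRight b) _ _ (fun c => ?_)
      rw [← hm, ← hx, smul_smul, ← AddChar.map_add_eq_mul]
      simp
    have hΦE : ∀ ψ : AddChar A ℂ, (∃ a, ψ a ≠ 1) → ∀ y ∈ fixS ρ U, Φ ψ y = 0 := by
      intro ψ hψ y hy
      rw [hΦ]
      have h1 : ∀ a : A, ψ a • ρ (x a) y = ψ a • y := fun a => by rw [hy _ (hxU a)]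
      rw [Finset.sum_congr rfl (fun a _ => h1 a), ← Finset.sum_smul]
      have h2 : ∑ a : A, ψ a = 0 := by
        rw [AddChar.sum_eq_zero_iff_ne_zero]
        intro h
        obtain ⟨a, ha⟩ := hψ
        apply ha
        rw [h]
        simp
      rw [h2, zero_smul]
    set D : AddChar A ℂ → V := fun ψ => τ - ∑ a ∈ Finset.univ.erase (0 : A), ψ (-(ι a)) • ρ (g a) v' with hD
    have hDE : ∀ ψ, D ψ ∈ fixS ρ U := by
      intro ψ
      refine Submodule.sub_mem _ hτE (Submodule.sum_mem _ (fun a ha => Submodule.smul_mem _ _ ?_))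
      exact hgE a (Finset.mem_erase.mp ha).1
    have hD0 : ∀ ψ : AddChar A ℂ, (∃ a, ψ a ≠ 1) → D ψ = 0 := by
      intro ψ hψ
      refine hinj ψ hψ (D ψ) (hDE ψ) ?_
      rw [← hΦ]
      show Φ ψ (ρ n (τ - ∑ a ∈ Finset.univ.erase (0 : A), ψ (-(ι a)) • ρ (g a) v')) = 0
      rw [map_sub, map_sub, hnτ, map_add, hΦE ψ hψ v' hv', zero_add, map_sum, map_sum, map_sum, sub_eq_zero]
      refine Finset.sum_congr rfl (fun a _ => ?_)
      rw [hΦx, map_smul, map_smul]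
    refine ⟨- D 1, fun a₀ ha₀ => ?_⟩
    have e1 : ∑ ψ : AddChar A ℂ, ψ (ι a₀) • D ψ = D 1 := by
      rw [Finset.sum_eq_single (1 : AddChar A ℂ)]
      · rw [AddChar.one_apply, one_smul]
      · intro ψ _ hψ
        rw [hD0 ψ (AddChar.ne_one_iff.mp hψ), smul_zero]
      · intro h
        exact absurd (Finset.mem_univ _) h
    have e2 : ∑ ψ : AddChar A ℂ, ψ (ι a₀) • D ψ = - ((Fintype.card A : ℂ) • ρ (g a₀) v') := by
      have h1 : ∀ ψ : AddChar A ℂ, ψ (ι a₀) • D ψ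
          = ψ (ι a₀) • τ - ∑ a ∈ Finset.univ.erase (0 : A), ψ (ι a₀ - ι a) • ρ (g a) v' := by
        intro ψ
        show ψ (ι a₀) • (τ - ∑ a ∈ Finset.univ.erase (0 : A), ψ (-(ι a)) • ρ (g a) v') = _
        rw [smul_sub, Finset.smul_sum]
        congr 1
        refine Finset.sum_congr rfl (fun a _ => ?_)
        show ψ (ι a₀) • ψ (-(ι a)) • ρ (g a) v' = _
        rw [smul_smul, ← AddChar.map_add_eq_mul, sub_eq_add_neg]
      rw [Finset.sum_congr rfl (fun ψ _ => h1 ψ), Finset.sum_sub_distrib, ← Finset.sum_smul,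
        AddChar.sum_apply_eq_ite, if_neg (hι0 a₀ ha₀), zero_smul, zero_sub, Finset.sum_comm]
      congr 1
      have h2 : ∀ a ∈ Finset.univ.erase (0 : A), ∑ ψ : AddChar A ℂ, ψ (ι a₀ - ι a) • ρ (g a) v'
          = if a = a₀ then (Fintype.card A : ℂ) • ρ (g a₀) v' else 0 := by
        intro a ha
        have ha0 : a ≠ 0 := (Finset.mem_erase.mp ha).1
        rw [← Finset.sum_smul, AddChar.sum_apply_eq_ite]
        by_cases h : a = a₀
        · subst h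
          rw [if_pos (sub_self _), if_pos rfl]
        · rw [if_neg, if_neg h, zero_smul]
          intro h'
          exact h (hιinj a₀ a ha₀ ha0 (sub_eq_zero.mp h')).symm
      rw [Finset.sum_congr rfl h2, Finset.sum_ite_eq' , if_pos (Finset.mem_erase.mpr ⟨ha₀, Finset.mem_univ _⟩)]
    rw [← e1, e2, neg_neg]
  intro a b ha hb v hv
  obtain ⟨c, hc⟩ := key v hv
  have h := (hc a ha).trans (hc b hb).symm
  have hne : (Fintype.card A : ℂ) ≠ 0 := by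
    exact_mod_cast Fintype.card_ne_zero
  exact smul_right_injective V hne h

end Cfsg.Agent.Lib.Helper36.BNSt
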