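import Cfsg.Agent.Lib.Helper36.BNSt.D
import Cfsg.Agent.Lib.Helper36.BNSt.E
import Cfsg.Agent.Lib.Helper36.BNSt.F
import Cfsg.Agent.Lib.Helper74.CharBasic
import Cfsg.Agent.Lib.Helper26.Virtual

/-!
# Piece H of the Steinberg character farm: the alternating sum has norm one
-/

set_option autoImplicit false

namespace Cfsg.Agent.Lib.Helper36.BNSt

open Cfsg Cfsg.Agent.Lib.Helper6.BN
open scoped ComplexConjugate

variable {G : Type*} [Group G] {P : Cfsg.BNPair G}

namespace H

theorem alt_sum {α : Type*} (S : Finset α) (p : α → Prop)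
    [∀ K : Finset α, Decidable (∀ s ∈ K, p s)] [Decidable (∀ s ∈ S, ¬ p s)] :
    ∑ K ∈ S.powerset, (-1 : ℂ) ^ K.card * (if ∀ s ∈ K, p s then 1 else 0) =
      if ∀ s ∈ S, ¬ p s then 1 else 0 := by
  classical
  have h1 : ∑ K ∈ S.powerset, (-1 : ℂ) ^ K.card * (if ∀ s ∈ K, p s then 1 else 0)
      = ∑ K ∈ (S.filter p).powerset, (-1 : ℂ) ^ K.card := by
    have : (S.filter p).powerset = S.powerset.filter (fun K => ∀ s ∈ K, p s) := by
      ext K
      simp only [Finset.mem_powerset, Finset.mem_filter, Finset.subset_iff]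
      constructor
      · intro h; exact ⟨fun x hx => (h hx).1, fun x hx => (h hx).2⟩
      · rintro ⟨h1, h2⟩ x hx; exact ⟨h1 hx, h2 x hx⟩
    rw [this, Finset.sum_filter]
    refine Finset.sum_congr rfl fun K _ => ?_
    split_ifs <;> simp
  rw [h1]
  have h2 := Finset.sum_powerset_neg_one_pow_card (x := S.filter p)
  have h3 : ∑ K ∈ (S.filter p).powerset, (-1 : ℂ) ^ K.card
      = ((∑ K ∈ (S.filter p).powerset, (-1 : ℤ) ^ K.card : ℤ) : ℂ) := by
    push_cast; rfl
  rw [h3, h2]
  by_cases h : ∀ s ∈ S, ¬ p s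
  · rw [if_pos h, if_pos (Finset.filter_eq_empty_iff.2 h)]; simp
  · rw [if_neg h, if_neg (fun h' => h (Finset.filter_eq_empty_iff.1 h'))]; simp

theorem lred_iff_forall {J : Set G} {g : G} : LRed P J g ↔ ∀ s ∈ J, LRed P {s} g := by
  unfold LRed
  constructor
  · intro h s hs t ht
    rw [Set.mem_singleton_iff] at ht
    subst ht
    exact h t hs
  · intro h s hs
    exact h s hs s rfl

theorem rred_iff_forall {J : Set G} {g : G} : RRed P J g ↔ ∀ s ∈ J, RRed P {s} g :=
  lred_iff_forall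

theorem stChar_eq [Finite G] : stChar P = ∑ J ∈ (Set.toFinite P.S).toFinset.powerset,
    ((-1 : ℂ) ^ J.card) • fixedPointCharacter (P.parabolic (J : Set G)) := by
  funext g
  simp [stChar, Finset.sum_apply]

theorem out_mem_dc (n : G) : Quotient.out (DoubleCoset.mk P.B P.B n) ∈ dc P n := by
  obtain ⟨h, k, hh, hk, e⟩ := DoubleCoset.mk_out_eq_mul P.B P.B n
  exact mem_dc.2 ⟨h, hh, k, hk, e⟩

end H

open H in
theorem classInner_stChar [Fintype G] : classInner (stChar P) (stChar P) = 1 := by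
  classical
  set Sf := (Set.toFinite P.S).toFinset with hSf
  have hsub : ∀ J ∈ Sf.powerset, ((J : Finset G) : Set G) ⊆ P.S := by
    intro J hJ x hx
    have := Finset.mem_powerset.1 hJ hx
    simpa [hSf] using this
  haveI : Finite (DoubleCoset.Quotient (P.B : Set G) P.B) :=
    Finite.of_surjective (DoubleCoset.mk P.B P.B) (Quotient.mk''_surjective)
  haveI := Fintype.ofFinite (DoubleCoset.Quotient (P.B : Set G) P.B)
  have hcard : ∀ K ∈ Sf.powerset, ∀ J ∈ Sf.powerset,
      classInner (fixedPointCharacter (P.parabolic (K : Set G)))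
        (fixedPointCharacter (P.parabolic (J : Set G))) =
      ∑ C : DoubleCoset.Quotient (P.B : Set G) P.B,
        (if ∀ s ∈ K, LRed P {s} (Quotient.out C) then (1 : ℂ) else 0) *
        (if ∀ s ∈ J, RRed P {s} (Quotient.out C) then (1 : ℂ) else 0) := by
    intro K hK J hJ
    rw [classInner_fixedPointCharacter, card_doubleCoset_parabolic (hsub J hJ) (hsub K hK),
      Nat.card_eq_fintype_card, Fintype.card_subtype, Finset.card_filter]
    push_cast
    refine Finset.sum_congr rfl fun C _ => ?_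
    rw [lred_iff_forall (J := (K : Set G)), rred_iff_forall (J := (J : Set G))]
    simp only [Finset.mem_coe]
    by_cases h1 : ∀ s ∈ K, LRed P {s} (Quotient.out C)
    · by_cases h2 : ∀ s ∈ J, RRed P {s} (Quotient.out C)
      · rw [if_pos ⟨h1, h2⟩, if_pos h1, if_pos h2]; simp
      · rw [if_neg (fun h => h2 h.2), if_neg h2]; simp
    · rw [if_neg (fun h => h1 h.1), if_neg h1]; simp
  rw [stChar_eq, Helper74.classInner_sum_left]
  simp only [Helper74.classInner_sum_right, Helper74.classInner_smul_left,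
    Helper74.classInner_smul_right]
  have hconj : ∀ k : ℕ, conj ((-1 : ℂ) ^ k) = (-1 : ℂ) ^ k := by intro k; simp
  have step1 : ∑ K ∈ Sf.powerset, ∑ J ∈ Sf.powerset, conj ((-1 : ℂ) ^ J.card) * ((-1 : ℂ) ^ K.card *
        classInner (fixedPointCharacter (P.parabolic (K : Set G)))
          (fixedPointCharacter (P.parabolic (J : Set G)))) =
      ∑ C : DoubleCoset.Quotient (P.B : Set G) P.B,
        (∑ K ∈ Sf.powerset, (-1 : ℂ) ^ K.card *
          (if ∀ s ∈ K, LRed P {s} (Quotient.out C) then (1 : ℂ) else 0)) *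
        (∑ J ∈ Sf.powerset, (-1 : ℂ) ^ J.card *
          (if ∀ s ∈ J, RRed P {s} (Quotient.out C) then (1 : ℂ) else 0)) := by
    simp only [Finset.sum_mul_sum]
    calc _ = ∑ K ∈ Sf.powerset, ∑ J ∈ Sf.powerset, ∑ C : DoubleCoset.Quotient (P.B : Set G) P.B,
          ((-1 : ℂ) ^ K.card * if ∀ s ∈ K, LRed P {s} (Quotient.out C) then (1 : ℂ) else 0) *
            ((-1 : ℂ) ^ J.card * if ∀ s ∈ J, RRed P {s} (Quotient.out C) then (1 : ℂ) else 0) := by
          refine Finset.sum_congr rfl fun K hK => Finset.sum_congr rfl fun J hJ => ?_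
          rw [hcard K hK J hJ, hconj, Finset.mul_sum, Finset.mul_sum]
          refine Finset.sum_congr rfl fun C _ => by ring
      _ = ∑ K ∈ Sf.powerset, ∑ C : DoubleCoset.Quotient (P.B : Set G) P.B, ∑ J ∈ Sf.powerset,
          ((-1 : ℂ) ^ K.card * if ∀ s ∈ K, LRed P {s} (Quotient.out C) then (1 : ℂ) else 0) *
            ((-1 : ℂ) ^ J.card * if ∀ s ∈ J, RRed P {s} (Quotient.out C) then (1 : ℂ) else 0) :=
          Finset.sum_congr rfl fun K _ => Finset.sum_comm
      _ = _ := Finset.sum_comm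
  refine step1.trans ?_
  simp only [alt_sum]
  obtain ⟨n₀, hn₀, hl, hr, huniq⟩ := exists_longest (P := P)
  have hmemS : ∀ s, s ∈ Sf ↔ s ∈ P.S := by intro s; simp [hSf]
  have hL : ∀ (C : DoubleCoset.Quotient (P.B : Set G) P.B) (n : G), n ∈ P.N → Quotient.out C ∈ dc P n →
      ((∀ s ∈ Sf, ¬ LRed P {s} (Quotient.out C)) ↔ ∀ s ∈ P.S, ¬ Up P s n) := by
    intro C n hn hC
    refine forall_congr' fun s => ?_
    rw [hmemS]
    refine imp_congr_right fun hs => ?_
    rw [← lred_congr (J := {s}) hC, lred_iff_up (Set.singleton_subset_iff.2 hs) hn]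
    simp
  have hR : ∀ (C : DoubleCoset.Quotient (P.B : Set G) P.B) (n : G), n ∈ P.N → Quotient.out C ∈ dc P n →
      ((∀ s ∈ Sf, ¬ RRed P {s} (Quotient.out C)) ↔ ∀ s ∈ P.S, ¬ Up P s n⁻¹) := by
    intro C n hn hC
    refine forall_congr' fun s => ?_
    rw [hmemS]
    refine imp_congr_right fun hs => ?_
    unfold RRed
    rw [← lred_congr (J := {s}) (inv_mem_dc hC),
      lred_iff_up (Set.singleton_subset_iff.2 hs) (P.N.inv_mem hn)]
    simp
  rw [Finset.sum_eq_single (DoubleCoset.mk P.B P.B n₀)]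
  · rw [if_pos ((hL _ n₀ hn₀ (out_mem_dc n₀)).2 hl), if_pos ((hR _ n₀ hn₀ (out_mem_dc n₀)).2 hr)]
    simp
  · intro C _ hC
    obtain ⟨n, hn, hCn⟩ := bruhat_exists (P := P) (Quotient.out C)
    rw [if_neg, zero_mul]
    intro h
    apply hC
    have h1 := huniq n hn ((hL C n hn hCn).1 h)
    rw [← DoubleCoset.out_eq' P.B P.B C]
    apply DoubleCoset.mk_eq_of_doubleCoset_eq
    have h2 : dc P (Quotient.out C) = dc P n := dc_eq_of_mem hCn
    exact h2.trans h1.dc_eq.symm
  · intro h; exact absurd (Finset.mem_univ _) h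

theorem isIrrCharacter_stChar [Fintype G] (h : 0 < (stChar P 1).re) : IsIrrCharacter G (stChar P) := by
  classical
  have hgen : IsGeneralizedCharacter G (stChar P) := by
    rw [H.stChar_eq]
    refine Helper26.gen_sum _ _ fun J _ => ?_
    have h1 := Helper26.gen_zsmul
      (Helper26.gen_of_char (isCharacter_fixedPointCharacter (P.parabolic (J : Set G)))) ((-1) ^ J.card)
    convert h1 using 1
    funext g
    simp
  rcases Helper26.gen_norm_one hgen classInner_stChar with h1 | h1
  · exact h1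
  · exfalso
    obtain ⟨n, _, hn⟩ := Helper26.irr_degree h1
    have h2 : stChar P 1 = -(n : ℂ) := by
      rw [← hn]; simp
    rw [h2] at h
    simp at h
    have : (0 : ℝ) ≤ n := Nat.cast_nonneg n
    linarith

end Cfsg.Agent.Lib.Helper36.BNSt
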