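import Cfsg.Agent.Lib.Helper36.BNSt.Defs2
import Cfsg.Agent.Lib.Helper36.BNSt.H
import Cfsg.Agent.Lib.Helper36.BNSt.Q1

set_option autoImplicit false

namespace Cfsg.Agent.Lib.Helper36.BNSt

open Cfsg Cfsg.Agent.Lib.Helper6.BN
open scoped ComplexConjugate

variable {G : Type*} [Group G] {V : Type*} [AddCommGroup V] [Module ℂ V] [FiniteDimensional ℂ V]

/-! ## Piece Q5 : recognition of the alternating sum -/

omit [FiniteDimensional ℂ V] in
theorem fixS_anti (ρ : Representation ℂ G V) {Z Z' : Subgroup G} (h : Z ≤ Z') : fixS ρ Z' ≤ fixS ρ Z :=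
  fun _ hv z hz => hv z (h hz)

theorem classInner_character_stChar [Fintype G] (ρ : Representation ℂ G V) (P : Cfsg.BNPair G)
    (h : ∀ s ∈ P.S, fixS ρ (P.parabolic {s}) = ⊥) :
    classInner ρ.character (stChar P) = (Module.finrank ℂ (fixS ρ P.B) : ℂ) := by
  classical
  rw [H.stChar_eq, Cfsg.Agent.Lib.Helper74.classInner_sum_right]
  rw [Finset.sum_eq_single (∅ : Finset G)]
  · rw [Cfsg.Agent.Lib.Helper74.classInner_smul_right, classInner_character_fixedPointCharacter]
    have e : P.parabolic ((∅ : Finset G) : Set G) = P.B := by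
      show P.B ⊔ Subgroup.closure ((∅ : Finset G) : Set G) = P.B
      rw [Finset.coe_empty, Subgroup.closure_empty, sup_bot_eq]
    rw [e]
    simp
  · intro J hJ hJ0
    rw [Cfsg.Agent.Lib.Helper74.classInner_smul_right, classInner_character_fixedPointCharacter]
    obtain ⟨s, hs⟩ := Finset.nonempty_iff_ne_empty.mpr hJ0
    have hsS : s ∈ P.S := by
      have := Finset.mem_powerset.mp hJ hs
      exact (Set.Finite.mem_toFinset _).mp this
    have hle : P.parabolic {s} ≤ P.parabolic (J : Set G) := by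
      show P.B ⊔ Subgroup.closure {s} ≤ P.B ⊔ Subgroup.closure (J : Set G)
      refine sup_le_sup_left (Subgroup.closure_mono ?_) _
      intro t ht
      rw [Set.mem_singleton_iff] at ht
      rw [ht]
      exact hs
    have hbot : fixS ρ (P.parabolic (J : Set G)) = ⊥ := by
      rw [eq_bot_iff, ← h s hsS]
      exact fixS_anti ρ hle
    rw [hbot]
    simp
  · intro hh
    exact absurd (Finset.empty_mem_powerset _) hh

theorem eq_stChar_of_fixS [Fintype G] (ρ : Representation ℂ G V) (hirr : ρ.IsIrreducible) (P : Cfsg.BNPair G)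
    (hSt : IsIrrCharacter G (stChar P)) (h : ∀ s ∈ P.S, fixS ρ (P.parabolic {s}) = ⊥)
    (hB : fixS ρ P.B ≠ ⊥) : ρ.character = stChar P := by
  by_contra hne
  have h1 := Cfsg.Agent.Lib.Helper74.classInner_irr_ne
    (χ := (⟨ρ.character, Cfsg.Agent.Lib.Helper74.isIrrCharacter_of_rep ρ hirr⟩ : IrrCharacter G))
    (ψ := (⟨stChar P, hSt⟩ : IrrCharacter G)) (fun hh => hne (congrArg Subtype.val hh))
  have h2 : classInner ρ.character (stChar P) = 0 := h1
  rw [classInner_character_stChar ρ P h] at h2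
  have h3 : Module.finrank ℂ (fixS ρ P.B) = 0 := by exact_mod_cast h2
  exact hB (Submodule.finrank_eq_zero.mp h3)

end Cfsg.Agent.Lib.Helper36.BNSt
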