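import Cfsg.Agent.Lib.Helper36.BNSt.G7
import Cfsg.Agent.Lib.Helper36.BNSt.Q1
import Cfsg.Agent.Lib.Helper36.BNSt.Q5
import Cfsg.Agent.Lib.Helper36.BNSt.Q3a
import Cfsg.Agent.Lib.Helper36.BNSt.Q3b
import Cfsg.Agent.Lib.Helper36.BNSt.Q3c
import Cfsg.Agent.Lib.Helper36.BNSt.Q4a
import Cfsg.Agent.Lib.Helper36.BNSt.Q4b

/-!
# Chevalley glue for the uniqueness of the defect zero character: the hypotheses of the abstract pieces
-/

set_option autoImplicit false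

namespace Cfsg.Agent.Lib.Helper36.BNSt

open Cfsg Cfsg.Lie Cfsg.Agent.Lib.Helper6.BN Cfsg.Agent.Lib.Helper18

variable {D : ChevalleyDatum} {F : Type*} [Field F] (X : BNData D F)

/-- `x_{p_i}(a)` in the group -/
def xGi (i : Fin D.rank) (a : F) : ↥(D.group F) :=
  ⟨X.hB.xg (D.simple i) a, X.hB.xg_mem_group (X.hT.tab.simple_lt i i.2) a⟩

/-- `h_{p_i}(c)` in the group -/
def hGi (i : Fin D.rank) (c : F) : ↥(D.group F) :=
  ⟨X.hB.hg (D.simple i) c, mul_mem (X.hB.ng_mem_group X.hT.tab (X.hT.tab.simple_lt i i.2) c)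
    (X.hB.ng_mem_group X.hT.tab (X.hT.tab.simple_lt i i.2) (-1))⟩

/-- `U` in the group -/
def UG (D : ChevalleyDatum) (F : Type*) [Field F] : Subgroup ↥(D.group F) :=
  (D.posUnipotent F).subgroupOf (D.group F)

/-- `U_{p_i}` in the group -/
def RG (i : Fin D.rank) : Subgroup ↥(D.group F) := (X.hB.Up i).subgroupOf (D.group F)

lemma xGi_add (i : Fin D.rank) (a b : F) : xGi X i (a + b) = xGi X i a * xGi X i b :=
  Subtype.ext (X.hB.xg_add _ a b).symm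

lemma UG_le_B : UG D F ≤ X.P.B := by
  rw [X.hPB]; exact fun x hx => Base.U_le_B (F := F) (D := D) hx

lemma mem_UG_iff (i : Fin D.rank) (u : ↥(D.group F)) :
    u ∈ UG D F ↔ ∃ r ∈ RG X i, ∃ a, u = r * xGi X i a := by
  have hTt := X.hT.tab
  constructor
  · intro hu
    obtain ⟨u₁, hu₁, t, e⟩ := (X.hB.mem_U_iff X.hT.ideal hTt i.2).1 hu
    exact ⟨⟨u₁, X.hB.B_le_group hTt (Base.U_le_B (X.hB.Up_le_U i hu₁))⟩, hu₁, t, Subtype.ext e⟩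
  · rintro ⟨r, hr, a, rfl⟩
    exact (X.hB.mem_U_iff X.hT.ideal hTt i.2).2 ⟨r, hr, a, rfl⟩

lemma xGi_mem_UG (i : Fin D.rank) (a : F) : xGi X i a ∈ UG D F :=
  X.hB.xg_mem_pos (X.hT.tab.isPos_simple i.2) a

lemma parabolic_le_normalizer (i : Fin D.rank) : X.P.parabolic {X.sG i} ≤
    (Subgroup.normalizer (X.hB.Up i : Set (GL D.Idx F))).subgroupOf (D.group F) := by
  unfold BNPair.parabolic
  apply sup_le
  · rw [X.hPB]; exact fun x hx => B_le_normalizer_Up X i hx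
  · rw [Subgroup.closure_le]
    rintro _ rfl
    exact ng_mem_normalizer_Up X i

lemma conj_mem_RG (i : Fin D.rank) : ∀ y ∈ X.P.parabolic {X.sG i}, ∀ r ∈ RG X i, y * r * y⁻¹ ∈ RG X i := by
  intro y hy r hr
  exact (Subgroup.mem_normalizer_iff.1 (parabolic_le_normalizer X i hy) r).1 hr

lemma sG_mem_parabolic (i : Fin D.rank) : X.sG i ∈ X.P.parabolic {X.sG i} :=
  (le_sup_right : Subgroup.closure {X.sG i} ≤ _) (Subgroup.subset_closure rfl)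

lemma B_le_parabolic' (i : Fin D.rank) : X.P.B ≤ X.P.parabolic {X.sG i} := le_sup_left

lemma exists_decomp (i : Fin D.rank) (g : ↥(D.group F)) :
    ∃ y ∈ X.P.parabolic {X.sG i}, ∃ n' ∈ (X.P.N : Set ↥(D.group F)), ∃ u ∈ UG D F, g = y * n' * u := by
  have hTt := X.hT.tab
  obtain ⟨n, hn, hgn⟩ := bruhat_exists (P := X.P) g
  obtain ⟨b₁, hb₁, b₂, hb₂, e⟩ := mem_dc.1 hgn
  obtain ⟨u, hu, h, hh, e2⟩ := X.hB.mem_B_iff.1 (inv_mem ((X.mem_B_iff b₂).1 hb₂))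
  have hhG := X.hB.H_le_group hTt (inv_mem hh)
  have huG := X.hB.B_le_group hTt (Base.U_le_B (inv_mem hu))
  refine ⟨b₁, B_le_parabolic' X i hb₁, n * ⟨h⁻¹, hhG⟩,
    mul_mem hn ((X.mem_N_iff _).2 (Base.H_le_N (inv_mem hh))), ⟨u⁻¹, huG⟩, inv_mem hu, ?_⟩
  have e3 : b₂ = ⟨h⁻¹, hhG⟩ * ⟨u⁻¹, huG⟩ := by
    apply Subtype.ext
    show (b₂ : GL D.Idx F) = h⁻¹ * u⁻¹
    rw [← inv_inv (b₂ : GL D.Idx F), e2]; group
  rw [e, e3]; group

lemma conj_cases (i : Fin D.rank) : ∀ n' ∈ (X.P.N : Set ↥(D.group F)),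
    (∀ a, n'⁻¹ * xGi X i a * n' ∈ UG D F) ∨
      (∀ a, n'⁻¹ * (X.sG i * xGi X i a * (X.sG i)⁻¹) * n' ∈ UG D F) := by
  intro n' hn'
  have hTt := X.hT.tab
  have hp := hTt.simple_lt i i.2
  let w : ↥X.P.N := ⟨n', hn'⟩
  obtain ⟨c, _, hc⟩ := X.hB.conj_xg hTt (X.ι w⁻¹) (X.pI i)
  obtain ⟨c', _, hc'⟩ := X.hB.conj_xg hTt (X.ι w⁻¹) (X.negR (X.pI i))
  have ew : ((X.ι w⁻¹ : ↥(D.monomialSubgroup F)) : GL D.Idx F) = (n' : GL D.Idx F)⁻¹ := rfl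
  rw [ew, inv_inv] at hc hc'
  rcases hTt.pos_or_neg (X.hB.permHom hTt (X.ι w⁻¹) (X.pI i) : Fin D.nroots).2 with h | h
  · left
    intro a
    show (n' : GL D.Idx F)⁻¹ * X.hB.xg (D.simple i) a * (n' : GL D.Idx F) ∈ D.posUnipotent F
    have := hc a
    rw [show ((X.pI i : Fin D.nroots) : ℕ) = D.simple i from rfl] at this
    rw [this]
    exact X.hB.xg_mem_pos h _
  · right
    intro a
    obtain ⟨η, _, hη⟩ := X.hB.ng_conj_xg i.2 hp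
    show (n' : GL D.Idx F)⁻¹ * (X.hB.ng (D.simple i) 1 * X.hB.xg (D.simple i) a *
      (X.hB.ng (D.simple i) 1)⁻¹) * (n' : GL D.Idx F) ∈ D.posUnipotent F
    rw [(hη a).1, hTt.refl_simple' i.2]
    have := hc' (η * a)
    rw [show ((X.negR (X.pI i) : Fin D.nroots) : ℕ) = D.neg (D.simple i) from rfl] at this
    rw [this]
    apply X.hB.xg_mem_pos
    have h3 : ((X.hB.permHom hTt (X.ι w⁻¹) (X.negR (X.pI i)) : Fin D.nroots) : ℕ) =
        D.neg (X.hB.permHom hTt (X.ι w⁻¹) (X.pI i) : Fin D.nroots) :=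
      X.hB.permHom_neg hTt (X.ι w⁻¹) (X.pI i)
    rw [h3]
    exact hTt.isPos_neg h

lemma parabolic_cases (i : Fin D.rank) : ∀ y ∈ X.P.parabolic {X.sG i},
    y ∈ X.P.B ∨ ∃ a, ∃ b ∈ X.P.B, y = xGi X i a * X.sG i * b := by
  intro y hy
  rcases (mem_parabolic_singleton (X.sG_mem_S i) y).1 hy with h | h
  · exact Or.inl h
  · right
    obtain ⟨b₁, hb₁, b₂, hb₂, rfl⟩ := mem_dc.1 h
    obtain ⟨t, b, hb, e⟩ := X.hB.dc_s_surj X.hT i.2 ((X.mem_B_iff _).1 hb₁) ((X.mem_B_iff _).1 hb₂)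
    exact ⟨t, ⟨b, X.hB.B_le_group X.hT.tab hb⟩, (X.mem_B_iff _).2 hb, Subtype.ext e⟩

lemma B_conj_UG : ∀ b ∈ X.P.B, ∀ u ∈ UG D F, b⁻¹ * u * b ∈ UG D F ∧ b * u * b⁻¹ ∈ UG D F := by
  intro b hb u hu
  have hBnorm : D.borelSubgroup F ≤ Subgroup.normalizer (D.posUnipotent F : Set (GL D.Idx F)) :=
    sup_le Subgroup.le_normalizer X.hB.H_le_normalizer_U
  have h1 := hBnorm ((X.mem_B_iff b).1 hb)
  have h2 := hBnorm ((X.mem_B_iff b⁻¹).1 (inv_mem hb))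
  refine ⟨?_, (Subgroup.mem_normalizer_iff.1 h1 u).1 hu⟩
  have := (Subgroup.mem_normalizer_iff.1 h2 u).1 hu
  show (b : GL D.Idx F)⁻¹ * u * (b : GL D.Idx F) ∈ D.posUnipotent F
  simpa using this

lemma eq_zero_of_mul_eq_one (i : Fin D.rank) : ∀ r ∈ RG X i, ∀ a, r * xGi X i a = 1 → a = 0 := by
  intro r hr a h
  apply eq_zero_of_xg_mem_Up X i
  have : xGi X i a = r⁻¹ := (inv_eq_of_mul_eq_one_right h).symm
  have h2 : xGi X i a ∈ RG X i := this ▸ inv_mem hr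
  exact h2

end Cfsg.Agent.Lib.Helper36.BNSt
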