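import Cfsg.Agent.Lib.Helper36.BNSt.G8

/-!
# Chevalley groups: a representation whose character vanishes on `U \ 1` affords the Steinberg character
-/

set_option autoImplicit false

namespace Cfsg.Agent.Lib.Helper36.BNSt

open Cfsg Cfsg.Lie Cfsg.Agent.Lib.Helper6.BN Cfsg.Agent.Lib.Helper18

variable {D : ChevalleyDatum} {F : Type*} [Field F] [Fintype F] (X : BNData D F)
variable {V : Type*} [AddCommGroup V] [Module ℂ V] [FiniteDimensional ℂ V]

lemma finrank_ne_zero_of_irr {G : Type*} [Group G] (ρ : Representation ℂ G V) (hirr : ρ.IsIrreducible) :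
    Module.finrank ℂ V ≠ 0 := by
  intro h0
  have hsub : Subsingleton V := Module.finrank_zero_iff.1 h0
  have : (⊥ : Subrepresentation ρ) = ⊤ := by
    apply Subrepresentation.toSubmodule_injective
    exact Subsingleton.elim _ _
  exact bot_ne_top this

include X in
lemma H_conj_UG {t : ↥(D.group F)} (ht : (t : GL D.Idx F) ∈ D.diagonalSubgroup F) :
    ∀ u ∈ UG D F, t⁻¹ * u * t ∈ UG D F ∧ t * u * t⁻¹ ∈ UG D F :=
  B_conj_UG X t ((X.mem_B_iff t).2 (Base.H_le_B ht))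

lemma apply_mem_fixS {G : Type*} [Group G] (ρ : Representation ℂ G V) {U : Subgroup G} {t : G}
    (ht : ∀ u ∈ U, t⁻¹ * u * t ∈ U) {v : V} (hv : v ∈ fixS ρ U) : ρ t v ∈ fixS ρ U := by
  intro u hu
  have h1 := hv _ (ht u hu)
  have e : u * t = t * (t⁻¹ * u * t) := by group
  calc ρ u (ρ t v) = ρ (u * t) v := by rw [map_mul]; rfl
    _ = ρ t (ρ (t⁻¹ * u * t) v) := by rw [e, map_mul]; rfl
    _ = ρ t v := by rw [h1]

theorem chev_rank_one (ρ : Representation ℂ ↥(D.group F) V) (hirr : ρ.IsIrreducible)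
    (hvan : ∀ u ∈ UG D F, u ≠ 1 → ρ.character u = 0) (i : Fin D.rank) :
    fixS ρ (X.P.parabolic {X.sG i}) = ⊥ ∧
      ∀ c : F, c ≠ 0 → ∀ v ∈ fixS ρ (UG D F), ρ (hGi X i c) v = v := by
  have hTt := X.hT.tab
  have hp := hTt.simple_lt i i.2
  set Y := X.P.parabolic {X.sG i} with hYdef
  set n := X.sG i with hn
  have hx0 : xGi X i 0 = 1 := Subtype.ext (X.hB.xg_zero _)
  have hxY : ∀ a, xGi X i a ∈ Y := fun a => B_le_parabolic' X i (UG_le_B X (xGi_mem_UG X i a))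
  have hnY : n ∈ Y := sG_mem_parabolic X i
  have hRY := conj_mem_RG X i
  have hU := mem_UG_iff X i
  have hRU : RG X i ≤ UG D F := fun r hr => X.hB.Up_le_U i hr
  have hdimC : ∀ ψ : AddChar F ℂ, (Module.finrank ℂ (isoS ρ (RG X i) (xGi X i) ψ) : ℂ) =
      ρ.character 1 / ((Nat.card (RG X i) : ℂ) * (Nat.card F : ℂ)) := fun ψ =>
    finrank_isoS ρ (xGi X i) (xGi_add X i) (RG X i) (fun a r hr => hRY _ (hxY a) r hr)
      (eq_zero_of_mul_eq_one X i) (fun r hr a hne => hvan _ ((hU _).2 ⟨r, hr, a, rfl⟩) hne) ψ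
  have hfix : fixS ρ (UG D F) = isoS ρ (RG X i) (xGi X i) 1 := by
    ext v
    rw [mem_fixS, mem_isoS]
    constructor
    · intro h
      exact ⟨fun r hr => h r (hRU hr), fun a => by
        rw [AddChar.one_apply, one_smul]; exact h _ (xGi_mem_UG X i a)⟩
    · rintro ⟨h1, h2⟩ u hu
      obtain ⟨r, hr, a, rfl⟩ := (hU u).1 hu
      have h3 := h2 a
      rw [AddChar.one_apply, one_smul] at h3
      calc ρ (r * xGi X i a) v = ρ r (ρ (xGi X i a) v) := by rw [map_mul]; rfl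
        _ = v := by rw [h3, h1 r hr]
  have hdim : ∀ ψ : AddChar F ℂ, Module.finrank ℂ (isoS ρ (RG X i) (xGi X i) ψ) =
      Module.finrank ℂ (fixS ρ (UG D F)) := by
    intro ψ
    rw [hfix]
    have := (hdimC ψ).trans (hdimC 1).symm
    exact_mod_cast this
  have hne : fixS ρ (UG D F) ≠ ⊥ := by
    intro h0
    have h1 := hdimC 1
    rw [← hfix, h0, finrank_bot, Representation.char_one] at h1
    have h2 : (Module.finrank ℂ V : ℂ) ≠ 0 := by exact_mod_cast finrank_ne_zero_of_irr ρ hirr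
    have h3 : ((Nat.card (RG X i) : ℂ) * (Nat.card F : ℂ)) ≠ 0 := by
      have : Nat.card (RG X i) * Nat.card F ≠ 0 :=
        Nat.mul_ne_zero Nat.card_pos.ne' Nat.card_pos.ne'
      exact_mod_cast this
    exact (div_ne_zero h2 h3) (by simpa using h1.symm)
  have hspan := fixS_le_span ρ hirr (xGi X i) (RG X i) (UG D F) Y n (X.P.N : Set ↥(D.group F)) hU hRY hxY hnY
    (exists_decomp X i) (conj_cases X i) hne
  have hinj : ∀ ψ : AddChar F ℂ, (∃ a, ψ a ≠ 1) → ∀ v ∈ fixS ρ (UG D F),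
      ∑ a : F, ψ a • ρ (xGi X i a) (ρ n v) = 0 → v = 0 := fun ψ hψ v hv h0 =>
    inj_of_span ρ (xGi X i) (xGi_add X i) (RG X i) (UG D F) Y X.P.B n hU hRY hxY hnY (parabolic_cases X i)
      (fun b hb u hu => (B_conj_UG X b hb u hu).1) hspan hdim ψ hψ v hv h0
  refine ⟨fixS_eq_bot_of_inj ρ (xGi X i) (UG D F) Y n ((UG_le_B X).trans (B_le_parabolic' X i)) hnY
    (xGi_mem_UG X i) hinj, ?_⟩
  obtain ⟨η, hη, hrel⟩ := rank_one_rel X i
  have hη0 : η ≠ 0 := by rcases hη with rfl | rfl <;> simp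
  have hηη : η * η = 1 := by rcases hη with rfl | rfl <;> simp
  have hgH : ∀ c : F, c ≠ 0 → ((n⁻¹ * hGi X i c * n : ↥(D.group F)) : GL D.Idx F) ∈ D.diagonalSubgroup F :=
    fun c hc => X.hB.ng_inv_conj_H hTt i.2 (X.hB.hg_mem hp hc)
  have hconst := torus_const_of_inj ρ (xGi X i) (xGi_add X i) (RG X i) (UG D F) n hU
    (fun a r hr => by simpa using hRY _ (inv_mem (hxY a)) r hr)
    (fun r hr => by simpa using hRY _ (inv_mem hnY) r hr)
    (fun u hu => by
      have h2 : ((n * n : ↥(D.group F)) : GL D.Idx F) ∈ D.diagonalSubgroup F := by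
        show X.hB.ng (D.simple i) 1 * X.hB.ng (D.simple i) 1 ∈ _
        rw [X.hB.ng_sq]
        exact inv_mem (X.hB.hg_mem hp (by simp))
      exact H_conj_UG X h2 u hu)
    (fun a => (η * a)⁻¹) (fun a => n⁻¹ * hGi X i (-(η * a)⁻¹) * n) (fun a => xGi X i (η * a)⁻¹)
    (fun a ha => inv_ne_zero (mul_ne_zero hη0 ha))
    (fun a b _ _ h => mul_left_cancel₀ hη0 (inv_injective h))
    (fun a ha u hu => (H_conj_UG X (hgH _ (neg_ne_zero.2 (inv_ne_zero (mul_ne_zero hη0 ha)))) u hu).1)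
    (fun a _ => xGi_mem_UG X i _)
    (fun a ha => Subtype.ext (hrel a ha)) hinj
  -- `n⁻¹ h(c) n` acts trivially
  have hK : ∀ c : F, c ≠ 0 → ∀ v ∈ fixS ρ (UG D F), ρ (n⁻¹ * hGi X i c * n) v = v := by
    intro c hc v hv
    have ha : η * (-c)⁻¹ ≠ 0 := mul_ne_zero hη0 (inv_ne_zero (neg_ne_zero.2 hc))
    have hb : -η ≠ 0 := neg_ne_zero.2 hη0
    have h1 := hconst (η * (-c)⁻¹) (-η) ha hb v hv
    have e1 : -(η * (η * (-c)⁻¹))⁻¹ = c := by
      rw [← mul_assoc, hηη, one_mul, inv_inv, neg_neg]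
    have e2 : -(η * -η)⁻¹ = 1 := by
      rw [mul_neg, hηη, inv_neg, inv_one, neg_neg]
    simp only [e1, e2] at h1
    rw [h1]
    have e3 : n⁻¹ * hGi X i 1 * n = 1 := by
      have : hGi X i 1 = 1 := Subtype.ext (X.hB.hg_one _)
      rw [this]; group
    rw [e3, map_one]; rfl
  have hform : ∀ c : F, n⁻¹ * hGi X i c * n = hGi X i (-1) * (hGi X i (-c))⁻¹ := fun c =>
    Subtype.ext (ng_inv_hg_ng X _ c)
  have hm1 : ∀ v ∈ fixS ρ (UG D F), ρ (hGi X i (-1)) v = v := by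
    intro v hv
    have h1 := hK (-1) (by simp) v hv
    rw [hform, neg_neg] at h1
    have : hGi X i 1 = 1 := Subtype.ext (X.hB.hg_one _)
    rwa [this, inv_one, mul_one] at h1
  intro c hc v hv
  have h1 := hK (-c) (neg_ne_zero.2 hc) v hv
  rw [hform, neg_neg, map_mul] at h1
  have hcH : ((hGi X i c : ↥(D.group F)) : GL D.Idx F) ∈ D.diagonalSubgroup F := X.hB.hg_mem hp hc
  have hv1 : ρ (hGi X i c)⁻¹ v ∈ fixS ρ (UG D F) :=
    apply_mem_fixS ρ (fun u hu => by simpa using (H_conj_UG X hcH u hu).2) hv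
  have h2 : ρ (hGi X i (-1)) (ρ (hGi X i c)⁻¹ v) = v := h1
  rw [hm1 _ hv1] at h2
  calc ρ (hGi X i c) v = ρ (hGi X i c) (ρ (hGi X i c)⁻¹ v) := by rw [h2]
    _ = ρ (hGi X i c * (hGi X i c)⁻¹) v := by rw [map_mul]; rfl
    _ = v := by rw [mul_inv_cancel, map_one]; rfl

end Cfsg.Agent.Lib.Helper36.BNSt
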