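import Cfsg.Agent.Lib.Helper36.BNSt.G1

/-!
# Piece K1 : the (B,N)-pair of a standard parabolic subgroup
-/

set_option autoImplicit false

namespace Cfsg.Agent.Lib.Helper36.BNSt

open Cfsg Cfsg.Agent.Lib.Helper6.BN

variable {G : Type*} [Group G]

theorem k1_NK_le_N (P : Cfsg.BNPair G) {K : Set G} (hK : K ⊆ P.S) :
    Subgroup.closure K ⊔ (P.B ⊓ P.N) ≤ P.N :=
  sup_le (closure_le_N hK) inf_le_right

theorem k1_NK_le_parabolic (P : Cfsg.BNPair G) (K : Set G) :
    Subgroup.closure K ⊔ (P.B ⊓ P.N) ≤ P.parabolic K :=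
  sup_le (closure_le_parabolic K) (inf_le_left.trans (B_le_parabolic K))

/-- double cosets of `B` in a subgroup `M ≥ B` are the double cosets in `G`. -/
theorem k1_mem_doubleCoset_iff {B M : Subgroup G} (hBM : B ≤ M) (x a : ↥M) :
    x ∈ DoubleCoset.doubleCoset a ((B.subgroupOf M : Subgroup ↥M) : Set ↥M) (B.subgroupOf M) ↔
      (x : G) ∈ DoubleCoset.doubleCoset (a : G) (B : Set G) B := by
  rw [DoubleCoset.mem_doubleCoset, DoubleCoset.mem_doubleCoset]
  constructor
  · rintro ⟨u, hu, v, hv, rfl⟩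
    exact ⟨u, Subgroup.mem_subgroupOf.1 hu, v, Subgroup.mem_subgroupOf.1 hv, rfl⟩
  · rintro ⟨u, hu, v, hv, h⟩
    exact ⟨⟨u, hBM hu⟩, Subgroup.mem_subgroupOf.2 hu, ⟨v, hBM hv⟩, Subgroup.mem_subgroupOf.2 hv,
      Subtype.ext h⟩

theorem k1_image_preimage {M : Subgroup G} {J : Set G} (hJ : J ⊆ M) :
    (M.subtype : ↥M → G) '' ((Subtype.val : ↥M → G) ⁻¹' J) = J := by
  ext x
  constructor
  · rintro ⟨y, hy, rfl⟩; exact hy
  · intro hx; exact ⟨⟨x, hJ hx⟩, hx, rfl⟩

theorem k1_map_closure_preimage {M : Subgroup G} {J : Set G} (hJ : J ⊆ M) :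
    (Subgroup.closure ((Subtype.val : ↥M → G) ⁻¹' J)).map M.subtype = Subgroup.closure J := by
  rw [MonoidHom.map_closure, k1_image_preimage hJ]

theorem k1_subset_parabolic (P : Cfsg.BNPair G) (K : Set G) : K ⊆ (P.parabolic K : Set G) :=
  fun _ hs => mem_parabolic_of_mem hs

/-- the (B,N)-pair of the standard parabolic subgroup `P_K` -/
def parBN (P : Cfsg.BNPair G) (K : Set G) (hK : K ⊆ P.S) : Cfsg.BNPair ↥(P.parabolic K) where
  B := P.B.subgroupOf (P.parabolic K)
  N := (Subgroup.closure K ⊔ (P.B ⊓ P.N)).subgroupOf (P.parabolic K)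
  S := Subtype.val ⁻¹' K
  sup_eq_top := by
    apply Subgroup.map_injective (P.parabolic K).subtype_injective
    rw [Subgroup.map_sup, Subgroup.subgroupOf_map_subtype, Subgroup.subgroupOf_map_subtype,
      inf_of_le_left (B_le_parabolic K), inf_of_le_left (k1_NK_le_parabolic P K),
      ← MonoidHom.range_eq_map, Subgroup.range_subtype]
    apply le_antisymm
    · exact sup_le (B_le_parabolic K) (k1_NK_le_parabolic P K)
    · exact sup_le le_sup_left (le_sup_left.trans le_sup_right)
  conj_mem := by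
    intro n hn t ht
    obtain ⟨ht1, ht2⟩ := Subgroup.mem_inf.1 ht
    exact Subgroup.mem_subgroupOf.2 (P.conj_mem n (k1_NK_le_N P hK (Subgroup.mem_subgroupOf.1 hn)) t
      (Subgroup.mem_inf.2 ⟨Subgroup.mem_subgroupOf.1 ht1,
        k1_NK_le_N P hK (Subgroup.mem_subgroupOf.1 ht2)⟩))
  subset := by
    intro s hs
    exact Subgroup.mem_subgroupOf.2
      ((le_sup_left : Subgroup.closure K ≤ _) (Subgroup.subset_closure hs))
  sq_mem := by
    intro s hs
    exact Subgroup.mem_subgroupOf.2 (P.sq_mem s (hK hs))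
  inj := by
    intro s hs s' hs' h
    exact Subtype.ext (P.inj s (hK hs) s' (hK hs') (Subgroup.mem_subgroupOf.1 h))
  closure_sup := by
    apply Subgroup.map_injective (P.parabolic K).subtype_injective
    rw [Subgroup.map_sup, k1_map_closure_preimage (k1_subset_parabolic P K),
      Subgroup.map_inf _ _ _ (P.parabolic K).subtype_injective,
      Subgroup.subgroupOf_map_subtype, Subgroup.subgroupOf_map_subtype,
      inf_of_le_left (B_le_parabolic K), inf_of_le_left (k1_NK_le_parabolic P K)]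
    apply le_antisymm
    · exact sup_le le_sup_left inf_le_right
    · exact sup_le le_sup_left ((le_inf inf_le_left le_sup_right).trans le_sup_right)
  mul_mem_union := by
    intro s hs n hn b hb
    rcases P.mul_mem_union s (hK hs) n (k1_NK_le_N P hK (Subgroup.mem_subgroupOf.1 hn)) b
      (Subgroup.mem_subgroupOf.1 hb) with h | h
    · exact Or.inl ((k1_mem_doubleCoset_iff (B_le_parabolic K) _ _).2 h)
    · exact Or.inr ((k1_mem_doubleCoset_iff (B_le_parabolic K) _ _).2 h)
  conj_ne := by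
    intro s hs h
    apply P.conj_ne s (hK hs)
    ext x
    constructor
    · rintro ⟨b, hb, rfl⟩
      have h1 : s * ⟨b, B_le_parabolic K hb⟩ * s ∈
          (fun b : ↥(P.parabolic K) => s * b * s) '' ((P.B.subgroupOf (P.parabolic K) :
            Subgroup ↥(P.parabolic K)) : Set ↥(P.parabolic K)) :=
        ⟨⟨b, B_le_parabolic K hb⟩, Subgroup.mem_subgroupOf.2 hb, rfl⟩
      rw [h] at h1
      exact Subgroup.mem_subgroupOf.1 h1
    · intro hx
      have h1 : (⟨x, B_le_parabolic K hx⟩ : ↥(P.parabolic K)) ∈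
          ((P.B.subgroupOf (P.parabolic K) : Subgroup ↥(P.parabolic K)) : Set ↥(P.parabolic K)) :=
        Subgroup.mem_subgroupOf.2 hx
      rw [← h] at h1
      obtain ⟨b, hb, hbx⟩ := h1
      exact ⟨b, Subgroup.mem_subgroupOf.1 hb, congrArg Subtype.val hbx⟩

theorem up_parBN_iff (P : Cfsg.BNPair G) (K : Set G) (hK : K ⊆ P.S) (s n : ↥(P.parabolic K)) :
    Up (parBN P K hK) s n ↔ Up P (s : G) (n : G) := by
  constructor
  · intro h b hb
    exact (k1_mem_doubleCoset_iff (B_le_parabolic K) _ _).1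
      (h ⟨b, B_le_parabolic K hb⟩ (Subgroup.mem_subgroupOf.2 hb))
  · intro h b hb
    exact (k1_mem_doubleCoset_iff (B_le_parabolic K) _ _).2 (h b (Subgroup.mem_subgroupOf.1 hb))

theorem parBN_parabolic (P : Cfsg.BNPair G) {J K : Set G} (hK : K ⊆ P.S) (hJK : J ⊆ K) :
    (parBN P K hK).parabolic (Subtype.val ⁻¹' J) = (P.parabolic J).subgroupOf (P.parabolic K) := by
  apply Subgroup.map_injective (P.parabolic K).subtype_injective
  change (P.B.subgroupOf (P.parabolic K) ⊔ Subgroup.closure (Subtype.val ⁻¹' J)).map _ = _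
  rw [Subgroup.map_sup, k1_map_closure_preimage (hJK.trans (k1_subset_parabolic P K)),
    Subgroup.subgroupOf_map_subtype, Subgroup.subgroupOf_map_subtype,
    inf_of_le_left (B_le_parabolic K), inf_of_le_left (parabolic_mono hJK)]
  rfl

theorem stChar_parBN [Finite G] (P : Cfsg.BNPair G) (K : Finset G) (hK : (K : Set G) ⊆ P.S)
    (x : ↥(P.parabolic (K : Set G))) :
    stChar (parBN P K hK) x = ∑ J ∈ K.powerset, (-1 : ℂ) ^ J.card *
      fixedPointCharacter ((P.parabolic (J : Set G)).subgroupOf (P.parabolic (K : Set G))) x := by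
  classical
  unfold stChar
  refine Finset.sum_bij'
    (fun J' _ => J'.map (Function.Embedding.subtype (· ∈ P.parabolic (K : Set G))))
    (fun J _ => J.subtype (· ∈ P.parabolic (K : Set G))) ?_ ?_ ?_ ?_ ?_
  · intro J' hJ'
    rw [Finset.mem_powerset] at hJ' ⊢
    intro a ha
    obtain ⟨b, hb, rfl⟩ := Finset.mem_map.1 ha
    have := hJ' hb
    rw [Set.Finite.mem_toFinset] at this
    exact Finset.mem_coe.1 this
  · intro J hJ
    rw [Finset.mem_powerset] at hJ ⊢
    intro a ha
    rw [Finset.mem_subtype] at ha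
    rw [Set.Finite.mem_toFinset]
    exact Finset.mem_coe.2 (hJ ha)
  · intro J' _
    ext a
    simp
  · intro J hJ
    rw [Finset.mem_powerset] at hJ
    apply Finset.subtype_map_of_mem
    intro a ha
    exact k1_subset_parabolic P _ (Finset.mem_coe.2 (hJ ha))
  · intro J' hJ'
    rw [Finset.mem_powerset] at hJ'
    rw [Finset.card_map]
    have e : (J' : Set ↥(P.parabolic (K : Set G))) = Subtype.val ⁻¹'
        ((J'.map (Function.Embedding.subtype (· ∈ P.parabolic (K : Set G))) : Finset G) : Set G) := by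
      ext a
      simp
    have hJK : ((J'.map (Function.Embedding.subtype (· ∈ P.parabolic (K : Set G))) : Finset G) : Set G)
        ⊆ (K : Set G) := by
      intro a ha
      obtain ⟨b, hb, rfl⟩ := Finset.mem_map.1 (Finset.mem_coe.1 ha)
      have := hJ' hb
      rw [Set.Finite.mem_toFinset] at this
      exact this
    rw [e, parBN_parabolic P hK hJK]

end Cfsg.Agent.Lib.Helper36.BNSt
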