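import Mathlib
import Cfsg.Prelude.Def_ParabolicCharacters

/-!
# Piece K2 : double counting for permutation characters
-/

set_option autoImplicit false

namespace Cfsg.Agent.Lib.Helper36.BNSt

open Cfsg

theorem k2_smul_mk_eq_iff {X : Type*} [Group X] (Y : Subgroup X) (x g : X) :
    x • (g : X ⧸ Y) = (g : X ⧸ Y) ↔ g⁻¹ * x * g ∈ Y := by
  have e : x • (g : X ⧸ Y) = ((x * g : X) : X ⧸ Y) := rfl
  rw [e, QuotientGroup.eq, ← Y.inv_mem_iff]
  have : ((x * g)⁻¹ * g)⁻¹ = g⁻¹ * x * g := by group
  rw [this]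

theorem k2_card_fiber {X : Type*} [Group X] (Y : Subgroup X) (A : X → Prop)
    (hA : ∀ g x, A x → A (g * x * g⁻¹)) (c : X ⧸ Y) :
    Nat.card {x : X // A x ∧ x • c = c} = Nat.card {y : Y // A (y : X)} := by
  obtain ⟨g, rfl⟩ := QuotientGroup.mk_surjective c
  refine Nat.card_congr
    { toFun := fun x => ⟨⟨g⁻¹ * x.1 * g, (k2_smul_mk_eq_iff Y x.1 g).1 x.2.2⟩, by
        have := hA g⁻¹ x.1 x.2.1
        rwa [inv_inv] at this⟩
      invFun := fun y => ⟨g * y.1.1 * g⁻¹, hA g _ y.2, by
        rw [k2_smul_mk_eq_iff]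
        have : g⁻¹ * (g * y.1.1 * g⁻¹) * g = y.1.1 := by group
        rw [this]; exact y.1.2⟩
      left_inv := fun x => by
        apply Subtype.ext
        change g * (g⁻¹ * x.1 * g) * g⁻¹ = x.1
        group
      right_inv := fun y => by
        apply Subtype.ext
        apply Subtype.ext
        change g⁻¹ * (g * y.1.1 * g⁻¹) * g = y.1.1
        group }

theorem finsum_fixedPointCharacter {X : Type*} [Group X] [Finite X] (Y : Subgroup X) (A : X → Prop)
    (hA : ∀ g x, A x → A (g * x * g⁻¹)) :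
    ∑ᶠ (x : X) (_ : A x), fixedPointCharacter Y x = (Y.index : ℂ) * (Nat.card {y : Y // A (y : X)} : ℂ) := by
  classical
  letI := Fintype.ofFinite X
  letI := Fintype.ofFinite (X ⧸ Y)
  rw [finsum_cond_eq_sum_of_cond_iff (t := Finset.univ.filter A) _ (by intro x _; simp)]
  have h1 : ∀ x : X, fixedPointCharacter Y x =
      (((Finset.univ : Finset (X ⧸ Y)).bipartiteAbove (fun x c => x • c = c) x).card : ℂ) := by
    intro x
    unfold fixedPointCharacter
    congr 1
    rw [Nat.card_eq_fintype_card, Finset.bipartiteAbove, ← Fintype.card_subtype]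
    rfl
  simp only [h1]
  rw [← Nat.cast_sum, Finset.sum_card_bipartiteAbove_eq_sum_card_bipartiteBelow]
  have h2 : ∀ c : X ⧸ Y, ((Finset.univ.filter A).bipartiteBelow (fun x c => x • c = c) c).card =
      Nat.card {y : Y // A (y : X)} := by
    intro c
    rw [← k2_card_fiber Y A hA c, Nat.card_eq_fintype_card, Finset.bipartiteBelow,
      Finset.filter_filter, ← Fintype.card_subtype]
  simp only [h2]
  rw [Finset.sum_const, Finset.card_univ, smul_eq_mul, Nat.cast_mul, Subgroup.index,
    Nat.card_eq_fintype_card (α := X ⧸ Y)]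

end Cfsg.Agent.Lib.Helper36.BNSt
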