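import Cfsg.Agent.Lib.Helper36.BNSt.K1
import Cfsg.Agent.Lib.Helper36.BNSt.K2
import Cfsg.Agent.Lib.Helper36.BNSt.K6
import Cfsg.Agent.Lib.Helper36.BNSt.H

/-!
# Piece K3: Moebius inversion over the parabolic subgroups
-/

set_option autoImplicit false

namespace Cfsg.Agent.Lib.Helper36.BNSt

open Cfsg Cfsg.Agent.Lib.Helper6.BN

theorem k3_inner {α : Type*} [DecidableEq α] (S J : Finset α) (hJ : J ⊆ S) :
    ∑ K ∈ S.powerset, (-1 : ℂ) ^ K.card * (if J ⊆ K then 1 else 0) =
      (-1 : ℂ) ^ S.card * (if S ⊆ J then 1 else 0) := by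
  have h1 : ∑ K ∈ S.powerset, (-1 : ℂ) ^ K.card * (if J ⊆ K then 1 else 0) =
      ∑ K ∈ S.powerset, (-1 : ℂ) ^ (S \ K).card * (if J ⊆ S \ K then 1 else 0) := by
    refine Finset.sum_bij' (fun K _ => S \ K) (fun K _ => S \ K) ?_ ?_ ?_ ?_ ?_
    · intro K _; exact Finset.mem_powerset.2 Finset.sdiff_subset
    · intro K _; exact Finset.mem_powerset.2 Finset.sdiff_subset
    · intro K hK; exact Finset.sdiff_sdiff_eq_self (Finset.mem_powerset.1 hK)
    · intro K hK; exact Finset.sdiff_sdiff_eq_self (Finset.mem_powerset.1 hK)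
    · intro K hK
      rw [Finset.sdiff_sdiff_eq_self (Finset.mem_powerset.1 hK)]
  rw [h1]
  have h2 : ∀ K ∈ S.powerset, (-1 : ℂ) ^ (S \ K).card * (if J ⊆ S \ K then 1 else 0) =
      (-1 : ℂ) ^ S.card * ((-1 : ℂ) ^ K.card * (if ∀ s ∈ K, s ∉ J then 1 else 0)) := by
    intro K hK
    have hKS := Finset.mem_powerset.1 hK
    have e1 : (-1 : ℂ) ^ (S \ K).card = (-1 : ℂ) ^ S.card * (-1 : ℂ) ^ K.card := by
      have h3 : (S \ K).card + K.card = S.card := Finset.card_sdiff_add_card_eq_card hKS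
      rw [← h3, pow_add, mul_assoc, ← mul_pow]
      simp
    have e2 : J ⊆ S \ K ↔ ∀ s ∈ K, s ∉ J := by
      constructor
      · intro h s hs hsJ
        exact (Finset.mem_sdiff.1 (h hsJ)).2 hs
      · intro h s hs
        exact Finset.mem_sdiff.2 ⟨hJ hs, fun hsK => h s hsK hs⟩
    rw [e1, mul_assoc]
    simp only [e2]
  rw [Finset.sum_congr rfl h2, ← Finset.mul_sum, H.alt_sum]
  congr 1
  have e3 : (∀ s ∈ S, ¬ s ∉ J) ↔ S ⊆ J := by
    simp only [not_not]
    rfl
  simp only [e3]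

theorem k3_mobius {α : Type*} [DecidableEq α] (S : Finset α) (f : Finset α → ℂ) :
    ∑ K ∈ S.powerset, (-1 : ℂ) ^ K.card * ∑ J ∈ K.powerset, f J = (-1 : ℂ) ^ S.card * f S := by
  have h1 : ∀ K ∈ S.powerset, (-1 : ℂ) ^ K.card * ∑ J ∈ K.powerset, f J =
      ∑ J ∈ S.powerset, f J * ((-1 : ℂ) ^ K.card * (if J ⊆ K then 1 else 0)) := by
    intro K hK
    have hKS := Finset.mem_powerset.1 hK
    have e : K.powerset = S.powerset.filter (fun J => J ⊆ K) := by
      ext J
      simp only [Finset.mem_powerset, Finset.mem_filter]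
      exact ⟨fun h => ⟨h.trans hKS, h⟩, fun h => h.2⟩
    rw [e, Finset.sum_filter, Finset.mul_sum]
    refine Finset.sum_congr rfl fun J _ => ?_
    split_ifs <;> ring
  rw [Finset.sum_congr rfl h1, Finset.sum_comm]
  have h2 : ∀ J ∈ S.powerset, ∑ K ∈ S.powerset, f J * ((-1 : ℂ) ^ K.card * (if J ⊆ K then 1 else 0)) =
      if J = S then (-1 : ℂ) ^ S.card * f S else 0 := by
    intro J hJ
    have hJS := Finset.mem_powerset.1 hJ
    rw [← Finset.mul_sum, k3_inner S J hJS]
    by_cases h : J = S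
    · subst h
      simp [mul_comm]
    · rw [if_neg h, if_neg (fun h' => h (Finset.Subset.antisymm hJS h'))]
      simp
  rw [Finset.sum_congr rfl h2, Finset.sum_ite_eq' S.powerset S]
  simp

theorem k3_finsum_eq_sum {X : Type*} [Fintype X] (A : X → Prop) [DecidablePred A] (F : X → ℂ) :
    ∑ᶠ (x : X) (_ : A x), F x = ∑ x, if A x then F x else 0 := by
  simp only [finsum_eq_if]
  exact finsum_eq_sum_of_fintype _

variable {G : Type*} [Group G]

theorem k3_card_sub (A : G → Prop) {M L : Subgroup G} (hML : M ≤ L) :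
    Nat.card {y : ↥(M.subgroupOf L) // A ((y : ↥L) : G)} = Nat.card {x : M // A x} :=
  Nat.card_congr
    { toFun := fun y => ⟨⟨((y.1 : ↥L) : G), y.1.2⟩, y.2⟩
      invFun := fun x => ⟨⟨⟨(x.1 : G), hML x.1.2⟩, x.1.2⟩, x.2⟩
      left_inv := fun _ => rfl
      right_inv := fun _ => rfl }

theorem k3_card_index [Finite G] {M L : Subgroup G} (hML : M ≤ L) :
    (Nat.card M : ℂ) * ((M.subgroupOf L).index : ℂ) = (Nat.card L : ℂ) := by
  have h3 := Subgroup.card_mul_index (M.subgroupOf L)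
  rw [Nat.card_congr (Subgroup.subgroupOfEquivOfLe hML).toEquiv] at h3
  exact_mod_cast h3

theorem k3_card_top (A : G → Prop) (M : Subgroup G) (hM : M = ⊤) :
    Nat.card {x : M // A x} = Nat.card {g : G // A g} := by
  subst hM
  exact Nat.card_congr
    { toFun := fun y => ⟨y.1.1, y.2⟩
      invFun := fun x => ⟨⟨x.1, Subgroup.mem_top _⟩, x.2⟩
      left_inv := fun _ => rfl
      right_inv := fun _ => rfl }

theorem k3_step1 [Finite G] (P : Cfsg.BNPair G) (A : G → Prop)
    (hA : ∀ g x, A x → A (g * x * g⁻¹)) (c : ℂ) (K : Finset G) (hK : (K : Set G) ⊆ P.S)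
    (h : ∑ᶠ (x : ↥(P.parabolic (K : Set G))) (_ : A (x : G)), stChar (parBN P K hK) x = c) :
    ∑ J ∈ K.powerset, (-1 : ℂ) ^ J.card * ((Nat.card {x : P.parabolic (J : Set G) // A x} : ℂ) /
      (Nat.card (P.parabolic (J : Set G)) : ℂ)) = c / (Nat.card (P.parabolic (K : Set G)) : ℂ) := by
  classical
  have hn : ∀ K : Finset G, (Nat.card (P.parabolic (K : Set G)) : ℂ) ≠ 0 :=
    fun K => Nat.cast_ne_zero.2 Nat.card_pos.ne'
  have h0 := h
  have : Fintype ↥(P.parabolic (K : Set G)) := Fintype.ofFinite _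
  rw [k3_finsum_eq_sum] at h0
  simp only [stChar_parBN] at h0
  have h1 : ∀ x : ↥(P.parabolic (K : Set G)),
      (if A (x : G) then ∑ J ∈ K.powerset, (-1 : ℂ) ^ J.card *
        fixedPointCharacter ((P.parabolic (J : Set G)).subgroupOf (P.parabolic (K : Set G))) x
        else 0) = ∑ J ∈ K.powerset, (-1 : ℂ) ^ J.card * (if A (x : G) then
        fixedPointCharacter ((P.parabolic (J : Set G)).subgroupOf (P.parabolic (K : Set G))) x
        else 0) := by
    intro x
    split_ifs <;> simp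
  rw [Finset.sum_congr rfl (fun x _ => h1 x), Finset.sum_comm] at h0
  rw [eq_div_iff (hn K), Finset.sum_mul, ← h0]
  refine Finset.sum_congr rfl fun J hJ => ?_
  have hJK : P.parabolic (J : Set G) ≤ P.parabolic (K : Set G) :=
    parabolic_mono (Finset.coe_subset.2 (Finset.mem_powerset.1 hJ))
  rw [← Finset.mul_sum, ← k3_finsum_eq_sum (fun x : ↥(P.parabolic (K : Set G)) => A (x : G)),
    finsum_fixedPointCharacter _ (fun x : ↥(P.parabolic (K : Set G)) => A (x : G))
      (fun g x hx => hA (g : G) (x : G) hx), k3_card_sub A hJK, ← k3_card_index hJK]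
  have := hn J
  field_simp

theorem k3_step2 [Finite G] (P : Cfsg.BNPair G) :
    stChar P 1 = ∑ K ∈ (Set.toFinite P.S).toFinset.powerset,
      (-1 : ℂ) ^ K.card * ((Nat.card G : ℂ) / (Nat.card (P.parabolic (K : Set G)) : ℂ)) := by
  have hn : ∀ K : Finset G, (Nat.card (P.parabolic (K : Set G)) : ℂ) ≠ 0 :=
    fun K => Nat.cast_ne_zero.2 Nat.card_pos.ne'
  unfold stChar
  refine Finset.sum_congr rfl fun K _ => ?_
  rw [fixedPointCharacter_of_forall _ (fun z => by simp)]
  congr 1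
  rw [eq_div_iff (hn K)]
  have h3 := Subgroup.card_mul_index (P.parabolic (K : Set G))
  rw [mul_comm]
  exact_mod_cast h3

theorem card_of_finsum_stChar [Finite G] (P : Cfsg.BNPair G) (A : G → Prop)
    (hA : ∀ g x, A x → A (g * x * g⁻¹)) (c : ℂ)
    (h : ∀ (K : Finset G) (hK : (K : Set G) ⊆ P.S),
      ∑ᶠ (x : ↥(P.parabolic (K : Set G))) (_ : A (x : G)), stChar (parBN P K hK) x = c) :
    (Nat.card {g : G // A g} : ℂ) = c * stChar P 1 := by
  classical
  have hsub : ∀ K ∈ (Set.toFinite P.S).toFinset.powerset, (K : Set G) ⊆ P.S := by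
    intro K hK s hs
    have := Finset.mem_powerset.1 hK (Finset.mem_coe.1 hs)
    rwa [Set.Finite.mem_toFinset] at this
  have htop : P.parabolic (((Set.toFinite P.S).toFinset : Finset G) : Set G) = ⊤ := by
    rw [Set.Finite.coe_toFinset, parabolic_S]
  have hG0 : (Nat.card G : ℂ) ≠ 0 := Nat.cast_ne_zero.2 Nat.card_pos.ne'
  have h5 := k3_mobius (Set.toFinite P.S).toFinset
    (fun J => (-1 : ℂ) ^ J.card * ((Nat.card {x : P.parabolic (J : Set G) // A x} : ℂ) /
      (Nat.card (P.parabolic (J : Set G)) : ℂ)))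
  rw [Finset.sum_congr rfl (fun K hK => by rw [k3_step1 P A hA c K (hsub K hK) (h K (hsub K hK))])]
    at h5
  rw [k3_step2, Finset.mul_sum]
  have h6 : ∑ K ∈ (Set.toFinite P.S).toFinset.powerset,
      c * ((-1 : ℂ) ^ K.card * ((Nat.card G : ℂ) / (Nat.card (P.parabolic (K : Set G)) : ℂ))) =
      (Nat.card G : ℂ) * ∑ K ∈ (Set.toFinite P.S).toFinset.powerset,
        (-1 : ℂ) ^ K.card * (c / (Nat.card (P.parabolic (K : Set G)) : ℂ)) := by
    rw [Finset.mul_sum]
    refine Finset.sum_congr rfl fun K _ => ?_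
    ring
  rw [h6, h5, k3_card_top A _ htop, htop, Subgroup.card_top, ← mul_assoc ((-1 : ℂ) ^ _), ← mul_pow]
  simp only [mul_neg, mul_one, neg_neg, one_pow, one_mul]
  field_simp

end Cfsg.Agent.Lib.Helper36.BNSt
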